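import Mathlib
import Cfsg.Agent.Lib.Helper29.BrandtAbs
import Cfsg.Agent.Lib.Helper78.KulsLoc

set_option autoImplicit false

namespace Cfsg.Agent.Lib.Helper57.Kuls

open Module

section PureA

variable {A : Type*} [Ring A] {K : Type*} [Fintype K]

theorem phi_central {ι : A} {x y : K → A} (h1 : ∑ k, x k * ι * y k = 1) (c : A)
    (hl : ι * c = c) (hr : c * ι = c) (hc : ∀ u, (ι * u * ι) * c = c * (ι * u * ι)) (a : A) :
    a * ∑ k, x k * c * y k = (∑ k, x k * c * y k) * a := by
  calc a * ∑ k, x k * c * y k = (∑ l, x l * ι * y l) * a * ∑ k, x k * c * y k := by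
        rw [h1, one_mul]
    _ = ∑ l, ∑ k, x l * ((ι * (y l * a * x k) * ι) * c) * y k := by
        rw [Finset.sum_mul, Finset.sum_mul]
        refine Finset.sum_congr rfl fun l _ => ?_
        rw [Finset.mul_sum]
        refine Finset.sum_congr rfl fun k _ => ?_
        conv_lhs => rw [← hl]
        simp only [mul_assoc]
    _ = ∑ l, ∑ k, x l * (c * (ι * (y l * a * x k) * ι)) * y k := by
        simp_rw [hc]
    _ = (∑ l, x l * c * y l) * a * (∑ k, x k * ι * y k) := by
        rw [Finset.sum_mul, Finset.sum_mul]
        refine Finset.sum_congr rfl fun l _ => ?_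
        rw [Finset.mul_sum]
        refine Finset.sum_congr rfl fun k _ => ?_
        conv_rhs => rw [← hr]
        simp only [mul_assoc]
    _ = (∑ k, x k * c * y k) * a := by rw [h1, mul_one]

theorem phi_inj {ι : A} {x y : K → A} (h1 : ∑ k, x k * ι * y k = 1) (c : A)
    (hl : ι * c = c) (hr : c * ι = c) (hc : ∀ u, (ι * u * ι) * c = c * (ι * u * ι)) :
    ι * ∑ k, x k * c * y k = c := by
  calc ι * ∑ k, x k * c * y k = ∑ k, ((ι * x k * ι) * c) * y k := by
        rw [Finset.mul_sum]
        refine Finset.sum_congr rfl fun k _ => ?_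
        conv_lhs => rw [← hl]
        simp only [mul_assoc]
    _ = ∑ k, (c * (ι * x k * ι)) * y k := by simp_rw [hc]
    _ = c * ∑ k, x k * ι * y k := by
        rw [Finset.mul_sum]
        refine Finset.sum_congr rfl fun k _ => ?_
        conv_rhs => rw [← hr]
        simp only [mul_assoc]
    _ = c := by rw [h1, mul_one]

theorem resolve {ι : A} {x y : K → A} (h1 : ∑ k, x k * ι * y k = 1) (a : A) :
    a = ∑ k, ∑ l, x k * (ι * (y k * a * x l) * ι) * y l := by
  calc a = (∑ k, x k * ι * y k) * a * (∑ l, x l * ι * y l) := by rw [h1, one_mul, mul_one]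
    _ = _ := by
      rw [Finset.sum_mul, Finset.sum_mul]
      refine Finset.sum_congr rfl fun k _ => ?_
      rw [Finset.mul_sum]
      refine Finset.sum_congr rfl fun l _ => ?_
      simp only [mul_assoc]

end PureA

section Corner

variable {F A : Type*} [Field F] [Ring A] [Algebra F A] {e : A}

theorem corner_left (idem : IsIdempotentElem e) (c : idem.Corner) : e * c.1 = c.1 :=
  ((Subsemigroup.mem_corner_iff idem).1 c.2).1

theorem corner_right (idem : IsIdempotentElem e) (c : idem.Corner) : c.1 * e = c.1 :=
  ((Subsemigroup.mem_corner_iff idem).1 c.2).2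

/-- scalar action on the corner -/
@[reducible] def cornerSMul (idem : IsIdempotentElem e) : SMul F idem.Corner :=
  ⟨fun r c => ⟨r • c.1, (Subsemigroup.mem_corner_iff idem).2
    ⟨by rw [mul_smul_comm, corner_left], by rw [smul_mul_assoc, corner_right]⟩⟩⟩

/-- the inclusion of the corner, additively -/
def cornerVal (idem : IsIdempotentElem e) : idem.Corner →+ A where
  toFun := Subtype.val
  map_zero' := rfl
  map_add' _ _ := rfl

/-- module structure on the corner -/
@[reducible] def cornerModule (idem : IsIdempotentElem e) : Module F idem.Corner :=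
  letI := cornerSMul (F := F) idem
  Function.Injective.module F (cornerVal idem) Subtype.val_injective (fun _ _ => rfl)

instance cornerAlgebra (idem : IsIdempotentElem e) : Algebra F idem.Corner :=
  letI := cornerModule (F := F) idem
  Algebra.ofModule (fun r x y => Subtype.ext (smul_mul_assoc r x.1 y.1))
    (fun r x y => Subtype.ext (mul_smul_comm r x.1 y.1))

/-- the inclusion of the corner, linearly -/
def cornerValL (F : Type*) {A : Type*} [Field F] [Ring A] [Algebra F A] {e : A}
    (idem : IsIdempotentElem e) : idem.Corner →ₗ[F] A where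
  toFun := Subtype.val
  map_add' _ _ := rfl
  map_smul' _ _ := rfl

/-- `a ↦ e a e` -/
def cornerMk (idem : IsIdempotentElem e) (a : A) : idem.Corner :=
  ⟨e * a * e, (Subsemigroup.mem_corner_iff idem).2
    ⟨by rw [← mul_assoc, ← mul_assoc, idem.eq], by rw [mul_assoc, idem.eq]⟩⟩

end Corner

theorem corner_bound {F A : Type*} [Field F] [Ring A] [Algebra F A] [FiniteDimensional F A]
    (t : A →ₗ[F] F) (ht : ∀ x y, t (x * y) = t (y * x))
    (hnd : ∀ x, (∀ y, t (x * y) = 0) → x = 0)
    {n : ℕ} [NeZero n] (π : A →ₐ[F] Matrix (Fin n) (Fin n) F) (hπ : Function.Surjective π)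
    (J : Ideal A) [J.IsTwoSided] (hJ : IsNilpotent J) (hker : ∀ a, π a = 0 ↔ a ∈ J)
    (hz : finrank F (Subalgebra.center F A) ≤ 4) :
    finrank F A ≤ n ^ 2 * finrank F (Subalgebra.center F A) := by
  obtain ⟨ι, x, y, hι, hπι, h1⟩ := Cfsg.Agent.Lib.Helper29.Brandt.exists_resolution π hπ J hJ hker
  have idem : IsIdempotentElem ι := hι
  have hfd : FiniteDimensional F idem.Corner :=
    FiniteDimensional.of_injective (cornerValL F idem) Subtype.val_injective
  -- transfer of central subspaces
  have hS : ∀ S : Submodule F idem.Corner, (∀ c ∈ S, ∀ d : idem.Corner, d * c = c * d) →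
      finrank F S ≤ finrank F (Subalgebra.center F A) := by
    intro S hS
    have hc : ∀ c ∈ S, ∀ u, (ι * u * ι) * c.1 = c.1 * (ι * u * ι) := fun c hc u =>
      congrArg Subtype.val (hS c hc (cornerMk idem u))
    let Ψ : S →ₗ[F] Subalgebra.center F A :=
      { toFun := fun c => ⟨∑ k, x k * c.1.1 * y k, by
          rw [Subalgebra.mem_center_iff]
          intro a
          exact phi_central h1 c.1.1 (corner_left idem _) (corner_right idem _) (hc c.1 c.2) a⟩
        map_add' := by
          intro c d
          apply Subtype.ext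
          change ∑ k, x k * (c.1.1 + d.1.1) * y k = ∑ k, x k * c.1.1 * y k + ∑ k, x k * d.1.1 * y k
          rw [← Finset.sum_add_distrib]
          refine Finset.sum_congr rfl fun k _ => ?_
          rw [mul_add, add_mul]
        map_smul' := by
          intro r c
          apply Subtype.ext
          change ∑ k, x k * (r • c.1.1) * y k = r • ∑ k, x k * c.1.1 * y k
          rw [Finset.smul_sum]
          refine Finset.sum_congr rfl fun k _ => ?_
          rw [mul_smul_comm, smul_mul_assoc] }
    refine LinearMap.finrank_le_finrank_of_injective (f := Ψ) ?_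
    intro c d hcd
    have h2 : ∑ k, x k * c.1.1 * y k = ∑ k, x k * d.1.1 * y k := congrArg Subtype.val hcd
    apply Subtype.ext
    apply Subtype.ext
    rw [← phi_inj h1 c.1.1 (corner_left idem _) (corner_right idem _) (hc c.1 c.2), h2,
      phi_inj h1 d.1.1 (corner_left idem _) (corner_right idem _) (hc d.1 d.2)]
  -- the corner is commutative
  have hcomm : ∀ c d : idem.Corner, c * d = d * c := by
    refine Cfsg.Agent.Lib.Helper78.Kuls.loc_comm (t ∘ₗ cornerValL F idem) ?_ ?_
      ((J.restrictScalars F).comap (cornerValL F idem)) ?_ ?_ ?_ ?_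
    · intro c d
      exact ht c.1 d.1
    · intro c hc
      apply Subtype.ext
      apply hnd
      intro a
      have h2 : t (c.1 * (ι * a * ι)) = 0 := hc (cornerMk idem a)
      have h3 : c.1 * (ι * a * ι) = (c.1 * a) * ι := by
        rw [← mul_assoc, ← mul_assoc, corner_right]
      rw [h3, ht, ← mul_assoc, corner_left] at h2
      exact h2
    · intro a ha c
      have ha' : a.1 ∈ J := ha
      exact ⟨show a.1 * c.1 ∈ J from J.mul_mem_right _ ha', show c.1 * a.1 ∈ J from
        J.mul_mem_left _ ha'⟩
    · obtain ⟨N, hN⟩ := hJ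
      refine ⟨N, ?_⟩
      have hk : ∀ k : ℕ, ((J.restrictScalars F).comap (cornerValL F idem)) ^ k ≤
          ((J ^ k).restrictScalars F).comap (cornerValL F idem) := by
        intro k
        induction k with
        | zero =>
          intro a _
          rw [Submodule.mem_comap, Submodule.restrictScalars_mem, Submodule.pow_zero,
            Ideal.one_eq_top]
          trivial
        | succ k ih =>
          rw [pow_succ, Submodule.mul_le]
          intro a ha b hb
          rw [Submodule.mem_comap, Submodule.restrictScalars_mem, Submodule.pow_succ]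
          exact Ideal.mul_mem_mul (ih ha) hb
      rw [eq_bot_iff]
      intro a ha
      have := hk N ha
      rw [hN] at this
      rw [Submodule.mem_bot]
      apply Subtype.ext
      have h5 : (cornerValL F idem) a = 0 := by simpa using this
      exact h5
    · intro c
      refine ⟨π c.1 0 0, ?_⟩
      change c.1 - π c.1 0 0 • ι ∈ J
      rw [← hker, map_sub, map_smul, hπι]
      have h2 : π c.1 = Matrix.single 0 0 1 * π c.1 * Matrix.single 0 0 1 := by
        rw [← hπι, ← map_mul, ← map_mul, corner_left idem, corner_right idem]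
      conv_lhs => rw [h2]
      rw [Matrix.single_mul_mul_single, Matrix.smul_single]
      simp
    · have h5 : ∀ c ∈ Subalgebra.toSubmodule (Subalgebra.center F idem.Corner),
          ∀ d : idem.Corner, d * c = c * d := by
        intro c hc d
        have hc' : c ∈ Subalgebra.center F idem.Corner := hc
        exact Subalgebra.mem_center_iff.1 hc' d
      have h2 := hS (Subalgebra.toSubmodule (Subalgebra.center F idem.Corner)) h5
      exact h2.trans hz
  have h3 : finrank F idem.Corner ≤ finrank F (Subalgebra.center F A) := by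
    rw [← finrank_top F idem.Corner]
    exact hS ⊤ (fun c _ d => hcomm d c)
  -- the surjection
  let Θ : (Fin n × Fin n → idem.Corner) →ₗ[F] A :=
    ∑ kl : Fin n × Fin n, (LinearMap.mulLeft F (x kl.1)) ∘ₗ (LinearMap.mulRight F (y kl.2)) ∘ₗ
      (cornerValL F idem) ∘ₗ (LinearMap.proj kl)
  have hΘ : Function.Surjective Θ := by
    intro a
    refine ⟨fun kl => cornerMk idem (y kl.1 * a * x kl.2), ?_⟩
    conv_rhs => rw [resolve h1 a]
    rw [← Finset.sum_product']
    simp only [Θ, LinearMap.sum_apply]
    refine Finset.sum_congr rfl fun kl _ => ?_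
    change x kl.1 * ((ι * (y kl.1 * a * x kl.2) * ι) * y kl.2) = _
    simp only [mul_assoc]
  have h4 := LinearMap.finrank_le_finrank_of_surjective hΘ
  rw [finrank_pi_fintype, Finset.sum_const, Finset.card_univ, Fintype.card_prod, Fintype.card_fin,
    smul_eq_mul] at h4
  calc finrank F A ≤ n * n * finrank F idem.Corner := h4
    _ ≤ n ^ 2 * finrank F (Subalgebra.center F A) := by
      rw [sq]; exact Nat.mul_le_mul_left _ h3

end Cfsg.Agent.Lib.Helper57.Kuls
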