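import Mathlib
import Cfsg.Agent.Lib.Helper81.LocalRing

set_option autoImplicit false
open Cfsg
open Cfsg.Agent.Lib.Helper81

namespace Cfsg.Agent.Lib.Helper57.Kuls

variable {p : ℕ} {M : Ideal AlgInt}

/-- common denominators -/
theorem exists_common_denom (hM : IsPModular p M) (c : ℕ → ℂ) (hc : ∀ i, MemLocalRing M (c i))
    (n : ℕ) : ∃ s : AlgInt, s ∉ M ∧ ∀ i < n, ∃ u : AlgInt, (u : ℂ) = (s : ℂ) * c i := by
  have hP := isPrime_of_isPModular hM
  induction n with
  | zero => exact ⟨1, (Ideal.ne_top_iff_one M).1 hM.2.1.ne_top, fun i hi => absurd hi (by omega)⟩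
  | succ n ih =>
    obtain ⟨s, hs, hu⟩ := ih
    obtain ⟨a, b, hb, hab⟩ := hc n
    have hb' := coe_ne_zero_of_not_mem hb
    refine ⟨s * b, fun h => ?_, fun i hi => ?_⟩
    · rcases hP.mem_or_mem h with h | h
      · exact hs h
      · exact hb h
    · rcases Nat.lt_succ_iff_lt_or_eq.1 hi with h | h
      · obtain ⟨u, hu⟩ := hu i h
        refine ⟨u * b, ?_⟩
        push_cast
        rw [hu]; ring
      · subst h
        refine ⟨s * a, ?_⟩
        push_cast
        rw [← hab]; field_simp

/-- the local ring is integrally closed in `ℂ` -/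
theorem memLocalRing_of_monic_root (hM : IsPModular p M) (c : ℕ → ℂ)
    (hc : ∀ i, MemLocalRing M (c i)) (n : ℕ) (y : ℂ)
    (hy : y ^ n + ∑ i ∈ Finset.range n, c i * y ^ i = 0) : MemLocalRing M y := by
  obtain ⟨s, hs, hu⟩ := exists_common_denom hM c hc n
  have hs' := coe_ne_zero_of_not_mem hs
  choose! u hu using hu
  -- the polynomial
  let d : Fin n → AlgInt := fun i => s ^ (n - 1 - (i : ℕ)) * u i
  have hd : ∀ i : Fin n, ((d i : AlgInt) : ℂ) = (s : ℂ) ^ (n - (i : ℕ)) * c i := by
    intro i
    have h1 : n - (i : ℕ) = (n - 1 - (i : ℕ)) + 1 := by have := i.2; omega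
    simp only [d]
    push_cast
    rw [hu i i.2, h1, pow_succ]; ring
  have hint : IsIntegral AlgInt ((s : ℂ) * y) := by
    refine ⟨Polynomial.X ^ n + ∑ i : Fin n, Polynomial.C (d i) * Polynomial.X ^ (i : ℕ),
      Polynomial.monic_X_pow_add (Polynomial.degree_sum_fin_lt d), ?_⟩
    rw [Polynomial.eval₂_add, Polynomial.eval₂_finsetSum]
    simp only [Polynomial.eval₂_mul, Polynomial.eval₂_C, Polynomial.eval₂_pow, Polynomial.eval₂_X]
    have h2 : ∀ i : Fin n, (algebraMap AlgInt ℂ) (d i) * ((s : ℂ) * y) ^ (i : ℕ)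
        = (s : ℂ) ^ n * (c i * y ^ (i : ℕ)) := by
      intro i
      have h3 : (algebraMap AlgInt ℂ) (d i) = ((d i : AlgInt) : ℂ) := rfl
      have h4 : (s : ℂ) ^ n = (s : ℂ) ^ (n - (i : ℕ)) * (s : ℂ) ^ (i : ℕ) := by
        rw [← pow_add]; congr 1; have := i.2; omega
      rw [h3, hd i, mul_pow, h4]
      ring
    rw [Finset.sum_congr rfl (fun i _ => h2 i), ← Finset.mul_sum, mul_pow, ← mul_add,
      Fin.sum_univ_eq_sum_range (fun i => c i * y ^ i) n, hy, mul_zero]
  have hint' : IsIntegral ℤ ((s : ℂ) * y) := isIntegral_trans _ hint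
  refine ⟨⟨(s : ℂ) * y, hint'⟩, s, hs, ?_⟩
  field_simp

/-- KEY LEMMA -/
theorem key (hM : IsPModular p M) (x : ℂ) (n : ℕ) : ∀ a : ℕ → ℂ, (∀ i, MemLocalRing M (a i)) →
    ∑ i ∈ Finset.range (n + 1), a i * x ^ i = 0 → (∃ i ≤ n, ¬ MemLocalIdeal M (a i)) →
    MemLocalRing M x ∨ MemLocalRing M x⁻¹ := by
  induction n with
  | zero =>
    intro a ha h0 ⟨i, hi, hai⟩
    exfalso
    obtain rfl : i = 0 := by omega
    simp at h0
    rw [h0] at hai
    exact hai (memLocalIdeal_zero hM)
  | succ n ih =>
    intro a ha h0 ⟨i, hi, hai⟩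
    obtain ⟨b, hb⟩ : ∃ b, b = a (n + 1) := ⟨_, rfl⟩
    have hbO : MemLocalRing M b := hb ▸ ha _
    have hyO : MemLocalRing M (b * x) := by
      refine memLocalRing_of_monic_root hM (fun i => a i * b ^ (n - i))
        (fun i => memLocalRing_mul hM (ha i) (memLocalRing_pow hM hbO _)) (n + 1) _ ?_
      have h1 : ∀ i ∈ Finset.range (n + 1), a i * b ^ (n - i) * (b * x) ^ i
          = b ^ n * (a i * x ^ i) := by
        intro i hi
        have h2 : n = (n - i) + i := by have := Finset.mem_range.1 hi; omega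
        rw [mul_pow]
        conv_rhs => rw [h2, pow_add]
        ring
      rw [Finset.sum_congr rfl h1, ← Finset.mul_sum]
      rw [Finset.sum_range_succ, ← hb] at h0
      have h3 : (b * x) ^ (n + 1) = b ^ n * (b * x ^ (n + 1)) := by ring
      rw [h3, ← mul_add, add_comm, h0, mul_zero]
    by_cases hbm : MemLocalIdeal M b
    · by_cases hym : MemLocalIdeal M (b * x)
      · -- reduce the degree
        refine ih (Function.update a n (a n + b * x)) ?_ ?_ ?_
        · intro j
          by_cases hj : j = n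
          · subst hj
            rw [Function.update_self]
            exact memLocalRing_add hM (ha _) hyO
          · rw [Function.update_of_ne hj]; exact ha j
        · rw [Finset.sum_range_succ, Function.update_self]
          have h1 : ∀ j ∈ Finset.range n, Function.update a n (a n + b * x) j * x ^ j
              = a j * x ^ j := by
            intro j hj
            rw [Function.update_of_ne (by have := Finset.mem_range.1 hj; omega)]
          rw [Finset.sum_congr rfl h1]
          rw [Finset.sum_range_succ, Finset.sum_range_succ, ← hb] at h0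
          rw [← h0]; ring
        · have hi' : i ≠ n + 1 := by
            rintro rfl
            exact hai (hb ▸ hbm)
          refine ⟨i, by omega, ?_⟩
          by_cases hj : i = n
          · subst hj
            rw [Function.update_self]
            intro h
            apply hai
            have := memLocalIdeal_sub hM h hym
            simpa using this
          · rw [Function.update_of_ne hj]; exact hai
      · right
        have hy0 := ne_zero_of_not_memLocalIdeal hM hym
        have hb0 : b ≠ 0 := left_ne_zero_of_mul hy0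
        have hx0 : x ≠ 0 := right_ne_zero_of_mul hy0
        have h1 := memLocalRing_div hM hbO hyO hym
        have h2 : b / (b * x) = x⁻¹ := by field_simp
        rwa [h2] at h1
    · left
      have hb0 := ne_zero_of_not_memLocalIdeal hM hbm
      have h1 := memLocalRing_div hM hyO hbO hbm
      have h2 : b * x / b = x := by field_simp
      rwa [h2] at h1

theorem memLocalIdeal_intCast_iff' (hM : IsPModular p M) (n : ℤ) :
    MemLocalIdeal M (n : ℂ) ↔ (p : ℤ) ∣ n := by
  rcases Int.eq_nat_or_neg n with ⟨k, rfl | rfl⟩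
  · rw [Int.cast_natCast, memLocalIdeal_natCast_iff hM, Int.natCast_dvd_natCast]
  · rw [Int.cast_neg, Int.cast_natCast, dvd_neg, Int.natCast_dvd_natCast,
      ← memLocalIdeal_natCast_iff hM]
    constructor
    · intro h; simpa using memLocalIdeal_neg h
    · intro h; exact memLocalIdeal_neg h

theorem memLocalRing_or_inv (hM : IsPModular p M) {x : ℂ} (hx : IsAlgebraic ℤ x) :
    MemLocalRing M x ∨ MemLocalRing M x⁻¹ := by
  obtain ⟨P, hP0, hPx⟩ := hx
  have hQx : Polynomial.aeval x P.primPart = 0 := Polynomial.aeval_primPart_eq_zero hP0 hPx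
  have hprim := P.isPrimitive_primPart
  obtain ⟨Q, hQ⟩ : ∃ Q, Q = P.primPart := ⟨_, rfl⟩
  rw [← hQ] at hQx hprim
  have hex : ∃ i, ¬ (p : ℤ) ∣ Q.coeff i := by
    by_contra hcon
    push Not at hcon
    have h1 : Polynomial.C (p : ℤ) ∣ Q := (Polynomial.C_dvd_iff_dvd_coeff _ _).2 hcon
    have h2 := hprim _ h1
    have h3 := Int.isUnit_iff.1 h2
    have := hM.1.two_le
    omega
  obtain ⟨i, hi⟩ := hex
  refine key hM x Q.natDegree (fun j => (Q.coeff j : ℂ)) (fun j => memLocalRing_intCast hM _) ?_
    ⟨i, Polynomial.le_natDegree_of_ne_zero (fun h => hi (h ▸ dvd_zero _)), ?_⟩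
  · rw [Polynomial.aeval_eq_sum_range] at hQx
    rw [← hQx]
    refine Finset.sum_congr rfl fun j _ => ?_
    rw [zsmul_eq_mul]
  · rw [memLocalIdeal_intCast_iff' hM]; exact hi

end Cfsg.Agent.Lib.Helper57.Kuls
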