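import Cfsg.Agent.Lib.Helper57.MilTabGen
import Cfsg.Agent.Lib.Helper22.ChevCFTabE6

/-! Ladder MIL, rung TABE6. -/

set_option autoImplicit false
set_option maxRecDepth 1000000
set_option maxHeartbeats 0

namespace Cfsg.Agent.Lib.Lead.Mil

open Cfsg.Lie Cfsg.Agent.Lib.Helper22

theorem e6_chkA : allBelow tbE6.n (chkA tbE6) = true := by decide +kernel
theorem e6_chkB : allBelow tbE6.n (chkB tbE6) = true := by decide +kernel
theorem e6_chkC : allBelow tbE6.n (chkC tbE6) = true := by decide +kernel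
theorem e6_chkD : allBelow tbE6.n (chkD tbE6) = true := by decide +kernel
theorem e6_chkE : allBelow tbE6.n (chkE tbE6) = true := by decide +kernel

theorem milTab_E6 : MilTab chevE6 :=
  milTab_of_chk tbE6_valid hszE6 rfl (allBelow_iff.1 e6_chkA) (allBelow_iff.1 e6_chkB)
    (allBelow_iff.1 e6_chkC) (allBelow_iff.1 e6_chkD) (allBelow_iff.1 e6_chkE)

end Cfsg.Agent.Lib.Lead.Mil
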