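import Cfsg.Agent.Lib.Helper57.MilTabGen
import Cfsg.Agent.Lib.Helper22.ChevCFTabE7

/-! Ladder MIL, rung TABE7. -/

set_option autoImplicit false
set_option maxRecDepth 1000000
set_option maxHeartbeats 0

namespace Cfsg.Agent.Lib.Lead.Mil

open Cfsg.Lie Cfsg.Agent.Lib.Helper22

theorem e7_chkA : allBelow tbE7.n (chkA tbE7) = true := by decide +kernel
theorem e7_chkB : allBelow tbE7.n (chkB tbE7) = true := by decide +kernel
theorem e7_chkC : allBelow tbE7.n (chkC tbE7) = true := by decide +kernel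
theorem e7_chkD : allBelow tbE7.n (chkD tbE7) = true := by decide +kernel
theorem e7_chkE : allBelow tbE7.n (chkE tbE7) = true := by decide +kernel

theorem milTab_E7 : MilTab chevE7 :=
  milTab_of_chk tbE7_valid hszE7 rfl (allBelow_iff.1 e7_chkA) (allBelow_iff.1 e7_chkB)
    (allBelow_iff.1 e7_chkC) (allBelow_iff.1 e7_chkD) (allBelow_iff.1 e7_chkE)

end Cfsg.Agent.Lib.Lead.Mil
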