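import Cfsg.Agent.Lib.Helper22.ChevCF2
import Cfsg.Agent.Lib.Helper22.ChevFast
import Cfsg.Agent.Lib.Lead.Mil.Root

/-!
# Ladder MIL, table rungs: a generic Boolean check on helper22's number-coded tables implying `MilTab`
-/

set_option autoImplicit false

namespace Cfsg.Agent.Lib.Lead.Mil

open Cfsg.Lie Cfsg.Agent.Lib.Helper22

/-- coordinates from the number-coded tables -/
noncomputable def vF (T : Tb) (r i : ℕ) : ℤ := dc (coLook T.l T.CO r i)

/-- the pairing from the number-coded tables -/
noncomputable def pF (T : Tb) (r s : ℕ) : ℤ :=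
  Nat.rec 0 (fun i ih => ih + dc (coLook T.l T.CO r i) * -dc (caLook T.n T.CA i s)) T.l

theorem mt_sum_range_rec (f : ℕ → ℤ) (n : ℕ) :
    ((List.range n).map f).sum = Nat.rec 0 (fun i ih => ih + f i) n := by
  induction n with
  | zero => rfl
  | succ n ih => rw [List.range_succ, List.map_append, List.sum_append, ih]; simp

theorem vec_eq_vF {T : Tb} {D : ChevalleyDatum} (V : T.Valid D) {r i : ℕ} (hr : r < T.n)
    (hi : i < T.l) : vec D r i = vF T r i := V.co_eq hi hr

theorem ip_eq_pF {T : Tb} {D : ChevalleyDatum} (V : T.Valid D) {r s : ℕ} (hr : r < T.n)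
    (hs : s < T.n) : ip D r s = pF T r s := by
  unfold ip pF
  rw [← mt_sum_range_rec, ← V.hl]
  congr 1
  apply List.map_congr_left
  intro i hi
  rw [vec_eq_vF V hr (List.mem_range.1 hi), V.cartan_eq (List.mem_range.1 hi) hs]
  rfl

noncomputable def mtAny (N : ℕ) (f : ℕ → Bool) : Bool :=
  Nat.rec false (fun k ih => Bool.rec ih true (f k)) N

theorem mtAny_iff {N : ℕ} {f : ℕ → Bool} : mtAny N f = true ↔ ∃ k < N, f k = true := by
  induction N with
  | zero => simp [mtAny]
  | succ N ih =>
    have : mtAny (N + 1) f = Bool.rec (mtAny N f) true (f N) := rfl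
    rw [this, brec_or, ih]
    constructor
    · rintro (h | ⟨k, hk, h⟩)
      · exact ⟨N, Nat.lt_succ_self N, h⟩
      · exact ⟨k, Nat.lt_succ_of_lt hk, h⟩
    · rintro ⟨k, hk, h⟩
      rcases Nat.lt_succ_iff_lt_or_eq.1 hk with h' | rfl
      · exact Or.inr ⟨k, h', h⟩
      · exact Or.inl h

/-- check for `vec_neg` and `ip_self` -/
noncomputable def chkA (T : Tb) (r : ℕ) : Bool :=
  Bool.rec false (allBelow T.l fun i => decide (vF T (T.n - 1 - r) i = - vF T r i))
    (decide (pF T r r = 2))

/-- check for `ip_symm` and `ip_le` -/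
noncomputable def chkB (T : Tb) (r : ℕ) : Bool :=
  allBelow T.n fun s => Bool.rec false (Bool.rec false
    (Bool.rec (decide (pF T r s ≠ 2)) true (Nat.beq s r))
    (decide (pF T r s ≤ 2))) (decide (pF T r s = pF T s r))

/-- check for `comm`, one pair -/
noncomputable def chkC1 (T : Tb) (r s : ℕ) : Bool :=
  match ceF T r s with
  | [] => decide (0 ≤ pF T r s)
  | [(k, c)] =>
    Bool.rec false (Bool.rec false (Bool.rec false (Bool.rec false
      (allBelow T.l fun i => decide (vF T k i = vF T r i + vF T s i))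
      (decide (ceF T s r = [(k, -c)]))) (decide (c = 1 ∨ c = -1))) (Nat.blt k T.n))
      (decide (pF T r s = -1))
  | _ => false

noncomputable def chkC (T : Tb) (r : ℕ) : Bool :=
  allBelow T.n fun s => Bool.rec (Bool.rec (chkC1 T r s) true
    (Nat.beq (Nat.add s r) (Nat.sub T.n 1))) true (Nat.beq s r)

/-- check for `ex1` -/
noncomputable def chkD (T : Tb) (r : ℕ) : Bool :=
  allBelow T.n fun s => Bool.rec true
    (mtAny T.n fun a => Bool.rec false (Bool.rec false (decide (pF T r a ≤ pF T r s))
      (decide (0 ≤ pF T r a))) (decide (pF T s a = 1)))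
    (decide (0 ≤ pF T r s))

/-- check for `ex2` -/
noncomputable def chkE (T : Tb) (g : ℕ) : Bool :=
  allBelow T.n fun d => Bool.rec true
    (mtAny T.n fun e => Bool.rec false (decide (pF T g e = 0)) (decide (pF T d e = 1)))
    (decide (pF T g d = -1))

theorem brec_imp {x b : Bool} : (Bool.rec true x b : Bool) = true ↔ (b = true → x = true) := by
  cases b <;> simp

theorem milTab_of_chk {T : Tb} {D : ChevalleyDatum} (V : T.Valid D) (hsz : D.chain.size = T.n)
    (hL : T.L = 1)
    (hA : ∀ r < T.n, chkA T r = true) (hB : ∀ r < T.n, chkB T r = true)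
    (hC : ∀ r < T.n, chkC T r = true) (hD : ∀ r < T.n, chkD T r = true)
    (hE : ∀ r < T.n, chkE T r = true) : MilTab D := by
  have hn := V.hn
  have hl := V.hl
  have hcm : ∀ a b, D.commTerms a b = (ceF T a b).map fun p => (p.1, p.2, 1, 1) := fun a b => by
    rw [commTerms_eq, chainEntry_eq_ceF V hsz, ← ct1_eq T hL]; rfl
  have hneg : ∀ r < T.n, D.neg r = T.n - 1 - r := fun r hr => V.neg_eq' hr
  refine ⟨?_, ?_, ?_, ?_, ?_, ?_, ?_, ?_⟩
  · intro r hr
    rw [← hn] at hr ⊢
    rw [hneg r hr]; omega
  · intro r hr i hi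
    rw [← hn] at hr
    rw [← hl] at hi
    have h := hA r hr
    unfold chkA at h
    rw [brec_and, allBelow_iff] at h
    have h1 := of_decide_eq_true (h.2 i hi)
    rw [hneg r hr, vec_eq_vF V (by omega) hi, vec_eq_vF V hr hi]
    exact h1
  · intro r hr s hs
    rw [← hn] at hr hs
    have h := allBelow_iff.1 (hB r hr) s hs
    rw [brec_and] at h
    rw [ip_eq_pF V hr hs, ip_eq_pF V hs hr]
    exact of_decide_eq_true h.1
  · intro r hr
    rw [← hn] at hr
    have h := hA r hr
    unfold chkA at h
    rw [brec_and] at h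
    rw [ip_eq_pF V hr hr]
    exact of_decide_eq_true h.1
  · intro r hr s hs
    rw [← hn] at hr hs
    have h := allBelow_iff.1 (hB r hr) s hs
    rw [brec_and, brec_and, brec_or] at h
    rw [ip_eq_pF V hr hs]
    refine ⟨of_decide_eq_true h.2.1, fun h2 => ?_⟩
    rcases h.2.2 with h3 | h3
    · exact Nat.eq_of_beq_eq_true h3
    · exact absurd h2 (of_decide_eq_true h3)
  · intro r hr s hs h1 h2
    rw [← hn] at hr hs
    rw [hneg r hr] at h2
    have h := allBelow_iff.1 (hC r hr) s hs
    rw [brec_or, brec_or] at h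
    rcases h with h | h | h
    · exact absurd (Nat.eq_of_beq_eq_true h) h1
    · have h3 : s + r = T.n - 1 := Nat.eq_of_beq_eq_true h
      exact absurd (by omega) h2
    · unfold chkC1 at h
      rw [ip_eq_pF V hr hs, hcm r s, hcm s r]
      split at h
      · rename_i he
        left
        rw [he]
        exact ⟨of_decide_eq_true h, rfl⟩
      · rename_i k c he
        right
        rw [brec_and, brec_and, brec_and, brec_and, allBelow_iff] at h
        obtain ⟨h3, h4, h5, h6, h7⟩ := h
        have hk : k < T.n := by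
          have := h4
          simpa [Nat.blt_eq] using this
        refine ⟨of_decide_eq_true h3, k, c, hn ▸ hk, of_decide_eq_true h5, ?_, ?_, ?_⟩
        · rw [he]; rfl
        · rw [of_decide_eq_true h6]; rfl
        · intro i hi
          rw [← hl] at hi
          rw [vec_eq_vF V hk hi, vec_eq_vF V hr hi, vec_eq_vF V hs hi]
          exact of_decide_eq_true (h7 i hi)
      · exact absurd h (by simp)
  · intro r hr s hs h0
    rw [← hn] at hr hs
    rw [ip_eq_pF V hr hs] at h0
    have h := allBelow_iff.1 (hD r hr) s hs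
    rw [brec_imp, mtAny_iff] at h
    obtain ⟨a, ha, h1⟩ := h (decide_eq_true h0)
    rw [brec_and, brec_and] at h1
    refine ⟨a, hn ▸ ha, ?_, ?_, ?_⟩
    · rw [ip_eq_pF V hs ha]; exact of_decide_eq_true h1.1
    · rw [ip_eq_pF V hr ha]; exact of_decide_eq_true h1.2.1
    · rw [ip_eq_pF V hr ha, ip_eq_pF V hr hs]; exact of_decide_eq_true h1.2.2
  · intro g hg d hd h0
    rw [← hn] at hg hd
    rw [ip_eq_pF V hg hd] at h0
    have h := allBelow_iff.1 (hE g hg) d hd
    rw [brec_imp, mtAny_iff] at h
    obtain ⟨e, he, h1⟩ := h (decide_eq_true h0)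
    rw [brec_and] at h1
    refine ⟨e, hn ▸ he, ?_, ?_⟩
    · rw [ip_eq_pF V hd he]; exact of_decide_eq_true h1.1
    · rw [ip_eq_pF V hg he]; exact of_decide_eq_true h1.2

end Cfsg.Agent.Lib.Lead.Mil
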