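import Mathlib

set_option autoImplicit false

/-! Group ring lemmas for the principal ideal theorem. -/

namespace Cfsg.Agent.Lib.Helper57.PIT

open MonoidAlgebra

variable {k Q : Type*} [CommRing k] [CommGroup Q]

/-- the augmentation -/
noncomputable def aug (k Q : Type*) [CommRing k] [CommGroup Q] : MonoidAlgebra k Q →+* k :=
  (lift k k Q 1).toRingHom

theorem aug_single (q : Q) (r : k) : aug k Q (single q r) = r := by
  simp [aug, lift_single]

variable [Fintype Q]

/-- the norm element -/
noncomputable def Nm (k Q : Type*) [CommRing k] [CommGroup Q] [Fintype Q] : MonoidAlgebra k Q :=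
  ∑ σ : Q, single σ 1

theorem Nm_mul_coeff_one (y : MonoidAlgebra k Q) : (Nm k Q * y).coeff 1 = aug k Q y := by
  classical
  induction y using MonoidAlgebra.induction_linear with
  | zero => simp
  | add x y hx hy => rw [mul_add, coeff_add, Finsupp.add_apply, hx, hy, map_add]
  | single q r =>
    rw [Nm, Finset.sum_mul, coeff_sum, Finsupp.finsetSum_apply, aug_single]
    simp only [single_mul_single, one_mul, coeff_single, Finsupp.single_apply]
    rw [Finset.sum_eq_single q⁻¹]
    · simp
    · intro b _ hb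
      rw [if_neg]
      intro e
      exact hb (eq_inv_of_mul_eq_one_left e)
    · intro h; exact absurd (Finset.mem_univ _) h

theorem Nm_coeff (τ : Q) : (Nm k Q).coeff τ = 1 := by
  classical
  rw [Nm, coeff_sum, Finsupp.finsetSum_apply]
  simp only [coeff_single, Finsupp.single_apply]
  simp

theorem eq_Nm (d : MonoidAlgebra ℤ Q) (h : ∀ σ : Q, d * (single σ 1 - 1) = 0)
    (haug : aug ℤ Q d = Fintype.card Q) : d = Nm ℤ Q := by
  have h1 : ∀ σ : Q, single σ 1 * d = d := by
    intro σ
    have := h σ
    linear_combination this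
  have h2 : Nm ℤ Q * d = (Fintype.card Q : ℤ) • d := by
    rw [Nm, Finset.sum_mul, Finset.sum_congr rfl (fun σ _ => h1 σ)]
    simp
  have h3 : (Fintype.card Q : ℤ) * d.coeff 1 = Fintype.card Q := by
    have := Nm_mul_coeff_one d
    rw [h2, haug, coeff_smul] at this
    simpa using this
  have hpos : (Fintype.card Q : ℤ) ≠ 0 := by
    have : 0 < Fintype.card Q := Fintype.card_pos
    positivity
  have h4 : d.coeff 1 = 1 := by
    have : (Fintype.card Q : ℤ) * (d.coeff 1 - 1) = 0 := by linear_combination h3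
    have := (mul_eq_zero.mp this).resolve_left hpos
    linarith
  rw [← coeff_inj]
  ext τ
  rw [Nm_coeff]
  have h5 : (single τ⁻¹ (1 : ℤ) * d).coeff 1 = 1 * d.coeff τ :=
    coeff_single_mul_eq_mul_coeff τ (by
      intro m' _
      constructor
      · intro e
        have : m' = τ := by
          have := congrArg (fun z => τ * z) e
          simpa using this
        exact this
      · rintro rfl; simp)
  rw [h1, h4] at h5
  linarith

theorem exists_gens (Q : Type*) [CommGroup Q] [Finite Q] :
    ∃ (ι₀ : Type) (_ : Fintype ι₀) (σ : ι₀ → Q) (n : ι₀ → ℕ), (∀ i, σ i ^ n i = 1) ∧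
      Subgroup.closure (Set.range σ) = ⊤ ∧ ∏ i, n i = Nat.card Q := by
  classical
  obtain ⟨ι₀, hfin, n, hn, ⟨e⟩⟩ := CommGroup.equiv_prod_multiplicative_zmod_of_finite Q
  refine ⟨ι₀, hfin, fun i => e.symm (Pi.mulSingle i (Multiplicative.ofAdd 1)), n, ?_, ?_, ?_⟩
  · intro i
    rw [← map_pow, ← Pi.mulSingle_pow, ← ofAdd_nsmul]
    simp
  · rw [eq_top_iff]
    intro x _
    have hx : x = e.symm (∏ i, Pi.mulSingle i (e x i)) := by
      rw [Finset.univ_prod_mulSingle]; simp
    rw [hx, map_prod]
    apply Subgroup.prod_mem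
    intro i _
    have : NeZero (n i) := ⟨by have := hn i; omega⟩
    have h1 : Pi.mulSingle i (e x i) = (Pi.mulSingle i (Multiplicative.ofAdd (1 : ZMod (n i))) :
        (j : ι₀) → Multiplicative (ZMod (n j))) ^ (Multiplicative.toAdd (e x i)).val := by
      rw [← Pi.mulSingle_pow, ← ofAdd_nsmul]
      simp
    rw [h1, map_pow]
    exact Subgroup.pow_mem _ (Subgroup.subset_closure (Set.mem_range_self i)) _
  · rw [Nat.card_congr e.toEquiv, Nat.card_pi]
    refine Finset.prod_congr rfl (fun i _ => ?_)
    exact (Nat.card_zmod (n i)).symm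

theorem det_smul_eq_zero {R M J : Type*} [CommRing R] [AddCommGroup M] [Module R M] [Fintype J]
    [DecidableEq J] (Mx : Matrix J J R) (u : J → M) (h : ∀ j, ∑ k, Mx j k • u k = 0) (k : J) :
    Mx.det • u k = 0 := by
  calc Mx.det • u k = ∑ l, ((Mx.det • (1 : Matrix J J R)) k l) • u l := by
        simp [Matrix.smul_apply, Matrix.one_apply, ite_smul]
    _ = ∑ l, ((Mx.adjugate * Mx) k l) • u l := by rw [Matrix.adjugate_mul]
    _ = ∑ l, ∑ j, (Mx.adjugate k j * Mx j l) • u l := by
        simp [Matrix.mul_apply, Finset.sum_smul]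
    _ = ∑ j, Mx.adjugate k j • ∑ l, Mx j l • u l := by
        rw [Finset.sum_comm]
        simp [Finset.smul_sum, mul_smul]
    _ = 0 := by simp [h]

end Cfsg.Agent.Lib.Helper57.PIT
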