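import Mathlib
import Cfsg.Agent.Lib.Helper57.PIT1

set_option autoImplicit false

/-! The algebraic core of the principal ideal theorem. -/

namespace Cfsg.Agent.Lib.Helper57.PIT

open MonoidAlgebra
open scoped commutatorElement

section core

variable {G Q 𝓡 : Type*} [Group G] [CommGroup Q] [CommRing 𝓡]
  (p : G →* Q) (ι : MonoidAlgebra ℤ Q →+* 𝓡) (δ : G → 𝓡)

/-- the image of `g` in the big ring -/
noncomputable def br (g : G) : 𝓡 := ι (single (p g) 1)

theorem br_mul (g h : G) : br p ι (g * h) = br p ι g * br p ι h := by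
  unfold br
  rw [← map_mul, single_mul_single, one_mul, map_mul]

theorem br_of_one {g : G} (h : p g = 1) : br p ι g = 1 := by
  unfold br
  rw [h, ← one_def, map_one]

theorem br_one : br p ι (1 : G) = 1 := br_of_one p ι (map_one p)

theorem br_inv (g : G) : br p ι g * br p ι g⁻¹ = 1 := by
  rw [← br_mul, mul_inv_cancel, br_one]

theorem br_pow (g : G) (t : ℕ) : br p ι (g ^ t) = br p ι g ^ t := by
  induction t with
  | zero => simp [br_one]
  | succ t ih => rw [pow_succ, br_mul, ih, pow_succ]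

variable (hδ : ∀ g h, δ (g * h) = δ g + br p ι g * δ h)
include hδ

theorem dl_one : δ 1 = 0 := by
  have := hδ 1 1
  rw [br_one, mul_one] at this
  linear_combination -this

theorem dl_inv (g : G) : δ g⁻¹ = - (br p ι g⁻¹ * δ g) := by
  have := hδ g⁻¹ g
  rw [inv_mul_cancel, dl_one p ι δ hδ] at this
  linear_combination -this

theorem dl_comm (g h : G) :
    δ ⁅g, h⁆ = (1 - br p ι h) * δ g + (br p ι g - 1) * δ h := by
  rw [commutatorElement_def, hδ, hδ, hδ, br_mul, br_mul, br_mul, dl_inv p ι δ hδ g,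
    dl_inv p ι δ hδ h]
  have eg := br_inv p ι g
  have eh := br_inv p ι h
  linear_combination (-(br p ι h * δ g) - δ h * br p ι h * br p ι h⁻¹) * eg - δ h * eh

theorem dl_pow (g : G) (k : ℕ) :
    δ (g ^ k) = (∑ t ∈ Finset.range k, br p ι g ^ t) * δ g := by
  induction k with
  | zero => simp [dl_one p ι δ hδ]
  | succ k ih =>
    rw [pow_succ', hδ, ih, Finset.sum_range_succ', Finset.sum_congr rfl
      (fun t _ => pow_succ' (br p ι g) t), ← Finset.mul_sum]
    ring

end core

theorem core_main {G Q 𝓡 : Type*} [Group G] [Finite G] [CommGroup Q] [Fintype Q] [CommRing 𝓡]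
    (p : G →* Q) (hp : Function.Surjective p) (hker : p.ker ≤ commutator G)
    (ι : MonoidAlgebra ℤ Q →+* 𝓡) (π : 𝓡 →+* MonoidAlgebra ℤ Q) (hπι : ∀ r, π (ι r) = r)
    (δ : G → 𝓡) (hδ : ∀ g h, δ (g * h) = δ g + br p ι g * δ h)
    (hπδ : ∀ g, π (δ g) = single (p g) 1 - 1) (g : G) :
    ι (Nm ℤ Q) * δ g = 0 := by
  classical
  let _ : Algebra (MonoidAlgebra ℤ Q) 𝓡 := ι.toAlgebra
  have hsm : ∀ (r : MonoidAlgebra ℤ Q) (y : 𝓡), r • y = ι r * y := fun r y => Algebra.smul_def r y
  obtain ⟨I, hI⟩ : ∃ I : Ideal (MonoidAlgebra ℤ Q), I = RingHom.ker (aug ℤ Q) := ⟨_, rfl⟩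
  obtain ⟨M₀, hM₀⟩ : ∃ M₀ : Submodule (MonoidAlgebra ℤ Q) 𝓡,
      M₀ = Submodule.span _ (Set.range δ) := ⟨_, rfl⟩
  have hδM : ∀ g, δ g ∈ M₀ := fun g => by rw [hM₀]; exact Submodule.subset_span ⟨g, rfl⟩
  have hsI : ∀ σ : Q, (single σ (1 : ℤ) - 1 : MonoidAlgebra ℤ Q) ∈ I := by
    intro σ
    rw [hI, RingHom.mem_ker, map_sub, aug_single, map_one, sub_self]
  have hP1 : ∀ (x g : G), (br p ι x - 1) * δ g ∈ I • M₀ := by
    intro x g
    have := Submodule.smul_mem_smul (hsI (p x)) (hδM g)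
    rw [hsm, map_sub, map_one] at this
    exact this
  have hcomm : ∀ a ∈ commutator G, p a = 1 ∧ δ a ∈ I • M₀ := by
    intro a ha
    rw [commutator_eq_closure] at ha
    induction ha using Subgroup.closure_induction with
    | mem x hx =>
      obtain ⟨g, h, rfl⟩ := hx
      refine ⟨?_, ?_⟩
      · rw [commutatorElement_def, map_mul, map_mul, map_mul, map_inv, map_inv,
          mul_comm (p g) (p h), mul_inv_cancel_right, mul_inv_cancel]
      · rw [dl_comm p ι δ hδ]
        refine Submodule.add_mem _ ?_ (hP1 g h)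
        have := Submodule.neg_mem _ (hP1 h g)
        convert this using 1
        ring
    | one => exact ⟨map_one p, by rw [dl_one p ι δ hδ]; exact Submodule.zero_mem _⟩
    | mul x y _ _ hx hy =>
      refine ⟨by rw [map_mul, hx.1, hy.1, one_mul], ?_⟩
      rw [hδ, br_of_one p ι hx.1, one_mul]
      exact Submodule.add_mem _ hx.2 hy.2
    | inv x _ hx =>
      have h1 : p x⁻¹ = 1 := by rw [map_inv, hx.1, inv_one]
      refine ⟨h1, ?_⟩
      rw [dl_inv p ι δ hδ, br_of_one p ι h1, one_mul]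
      exact Submodule.neg_mem _ hx.2
  obtain ⟨ι₀, hfin, σ, n, hσn, hσgen, hprod⟩ := exists_gens Q
  choose γ hγ using fun i => hp (σ i)
  have : Fintype ↥(commutator G) := Fintype.ofFinite _
  obtain ⟨u, hu⟩ : ∃ u : ι₀ ⊕ ↥(commutator G) → 𝓡,
      u = Sum.elim (fun i => δ (γ i)) (fun a : ↥(commutator G) => δ (a : G)) := ⟨_, rfl⟩
  obtain ⟨c, hc⟩ : ∃ c : ι₀ ⊕ ↥(commutator G) → ℕ, c = Sum.elim n (fun _ => 1) := ⟨_, rfl⟩
  have hspan : M₀ = Submodule.span _ (Set.range u) := by
    apply le_antisymm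
    · rw [hM₀, Submodule.span_le]
      let K : Subgroup G :=
        { carrier := {g | δ g ∈ Submodule.span (MonoidAlgebra ℤ Q) (Set.range u)}
          mul_mem' := by
            intro a b ha hb
            show δ (a * b) ∈ Submodule.span (MonoidAlgebra ℤ Q) (Set.range u)
            rw [hδ]
            refine Submodule.add_mem _ ha ?_
            have hb' : δ b ∈ Submodule.span (MonoidAlgebra ℤ Q) (Set.range u) := hb
            have := Submodule.smul_mem _ (single (p a) (1 : ℤ)) hb'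
            rwa [hsm] at this
          one_mem' := by
            show δ 1 ∈ Submodule.span (MonoidAlgebra ℤ Q) (Set.range u)
            rw [dl_one p ι δ hδ]; exact Submodule.zero_mem _
          inv_mem' := by
            intro a ha
            show δ a⁻¹ ∈ Submodule.span (MonoidAlgebra ℤ Q) (Set.range u)
            rw [dl_inv p ι δ hδ]
            refine Submodule.neg_mem _ ?_
            have ha' : δ a ∈ Submodule.span (MonoidAlgebra ℤ Q) (Set.range u) := ha
            have := Submodule.smul_mem _ (single (p a⁻¹) (1 : ℤ)) ha'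
            rwa [hsm] at this }
      have hHK : commutator G ≤ K := by
        intro a ha
        show δ a ∈ Submodule.span (MonoidAlgebra ℤ Q) (Set.range u)
        exact Submodule.subset_span ⟨Sum.inr ⟨a, ha⟩, by rw [hu]; rfl⟩
      have hγK : ∀ i, γ i ∈ K := by
        intro i
        show δ (γ i) ∈ Submodule.span (MonoidAlgebra ℤ Q) (Set.range u)
        exact Submodule.subset_span ⟨Sum.inl i, by rw [hu]; rfl⟩
      have hmap : K.map p = ⊤ := by
        rw [eq_top_iff, ← hσgen, Subgroup.closure_le]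
        rintro _ ⟨i, rfl⟩
        exact ⟨γ i, hγK i, hγ i⟩
      rintro _ ⟨g, rfl⟩
      have hg : p g ∈ K.map p := by rw [hmap]; trivial
      obtain ⟨k, hk, hkg⟩ := hg
      have h1 : k⁻¹ * g ∈ K := hHK (hker (by
        rw [MonoidHom.mem_ker, map_mul, map_inv, hkg, inv_mul_cancel]))
      have h2 : g ∈ K := by
        have := K.mul_mem hk h1
        rwa [mul_inv_cancel_left] at this
      exact h2
    · rw [Submodule.span_le]
      rintro _ ⟨j, rfl⟩
      rw [hu]
      cases j <;> exact hδM _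
  have hcu : ∀ j, ((c j : ℕ) : MonoidAlgebra ℤ Q) • u j ∈
      I • Submodule.span (MonoidAlgebra ℤ Q) (Set.range u) := by
    rw [← hspan, hu, hc]
    rintro (i | a)
    · show ((n i : ℕ) : MonoidAlgebra ℤ Q) • δ (γ i) ∈ I • M₀
      have h1 : γ i ^ n i ∈ commutator G := hker (by rw [MonoidHom.mem_ker, map_pow, hγ, hσn])
      have h2 := (hcomm _ h1).2
      rw [dl_pow p ι δ hδ] at h2
      have h3 : (∑ t ∈ Finset.range (n i), (br p ι (γ i) ^ t - 1)) * δ (γ i) ∈ I • M₀ := by
        rw [Finset.sum_mul]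
        apply Submodule.sum_mem
        intro t _
        have := hP1 (γ i ^ t) (γ i)
        rwa [br_pow] at this
      have h4 := Submodule.sub_mem _ h2 h3
      convert h4 using 1
      rw [hsm, map_natCast, Finset.sum_sub_distrib]
      simp
      ring
    · show ((1 : ℕ) : MonoidAlgebra ℤ Q) • δ (a : G) ∈ I • M₀
      rw [Nat.cast_one, one_smul]
      exact (hcomm _ a.2).2
  have hx : ∀ j, ∃ x : ι₀ ⊕ ↥(commutator G) → MonoidAlgebra ℤ Q, (∀ k, aug ℤ Q (x k) = 0) ∧
      ∑ k, x k • u k = ((c j : ℕ) : MonoidAlgebra ℤ Q) • u j := by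
    intro j
    obtain ⟨a, ha, hsum⟩ := (Submodule.mem_ideal_smul_span_iff_exists_sum I u _).1 (hcu j)
    refine ⟨a, fun k => ?_, ?_⟩
    · have := ha k
      rwa [hI, RingHom.mem_ker] at this
    · rw [← hsum, Finsupp.sum_fintype]
      intro i; exact zero_smul _ _
  choose x hx0 hxs using hx
  obtain ⟨Mx, hMxdef⟩ : ∃ Mx : Matrix (ι₀ ⊕ ↥(commutator G)) (ι₀ ⊕ ↥(commutator G))
      (MonoidAlgebra ℤ Q), Mx = Matrix.diagonal (fun j => ((c j : ℕ) : MonoidAlgebra ℤ Q)) -
        Matrix.of x := ⟨_, rfl⟩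
  have hMx : ∀ j, ∑ k, Mx j k • u k = 0 := by
    intro j
    simp only [hMxdef, Matrix.sub_apply, Matrix.of_apply, sub_smul, Finset.sum_sub_distrib, hxs]
    rw [sub_eq_zero]
    simp [Matrix.diagonal_apply, ite_smul]
  have hdet := det_smul_eq_zero Mx u hMx
  obtain ⟨d, hd⟩ : ∃ d, d = Mx.det := ⟨_, rfl⟩
  rw [← hd] at hdet
  have hdM : ∀ y ∈ M₀, d • y = 0 := by
    rw [hspan]
    intro y hy
    induction hy using Submodule.span_induction with
    | mem y hy => obtain ⟨j, rfl⟩ := hy; exact hdet j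
    | zero => simp
    | add a b _ _ ha hb => rw [smul_add, ha, hb, add_zero]
    | smul r a _ ha => rw [smul_comm, ha, smul_zero]
  have haug : aug ℤ Q d = Fintype.card Q := by
    rw [hd, RingHom.map_det]
    have h1 : (aug ℤ Q).mapMatrix Mx = Matrix.diagonal (fun j => ((c j : ℕ) : ℤ)) := by
      ext j k
      simp only [RingHom.mapMatrix_apply, Matrix.map_apply, hMxdef, Matrix.sub_apply,
        Matrix.of_apply, map_sub, hx0, sub_zero]
      by_cases hjk : j = k
      · subst hjk; simp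
      · simp [Matrix.diagonal_apply_ne _ hjk]
    rw [h1, Matrix.det_diagonal, Fintype.prod_sum_type, hc]
    simp only [Sum.elim_inl, Sum.elim_inr, Nat.cast_one, Finset.prod_const_one, mul_one]
    rw [← Nat.cast_prod, hprod, Nat.card_eq_fintype_card]
  have hdσ : ∀ τ : Q, d * (single τ 1 - 1) = 0 := by
    intro τ
    obtain ⟨g, rfl⟩ := hp τ
    have h1 := hdM _ (hδM g)
    rw [hsm] at h1
    have h2 := congrArg π h1
    rwa [map_mul, hπι, hπδ, map_zero] at h2
  have hdN := eq_Nm d hdσ haug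
  have h1 := hdM _ (hδM g)
  rwa [hsm, hdN] at h1

end Cfsg.Agent.Lib.Helper57.PIT
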