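import Mathlib
import Cfsg.Agent.Lib.Helper57.PIT2

set_option autoImplicit false

/-! Cocycles with values in an induced module: the sum of the values vanishes. -/

namespace Cfsg.Agent.Lib.Helper57.PIT

open MonoidAlgebra

/-- a copy of `Additive A` carrying the instances needed for `TrivSqZeroExt` -/
def AA (A : Type*) := Additive A

instance (A : Type*) [CommGroup A] : AddCommGroup (AA A) :=
  inferInstanceAs (AddCommGroup (Additive A))

noncomputable instance (A : Type*) [CommGroup A] : Module ℤᵐᵒᵖ (AA A) :=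
  Module.compHom (AA A) ((RingHom.id ℤ).fromOpposite (fun _ _ => Commute.all _ _))

instance (A : Type*) [CommGroup A] : IsCentralScalar ℤ (AA A) := ⟨fun _ _ => rfl⟩

/-- first projection as a ring hom -/
def fstRH (A : Type*) [CommGroup A] : TrivSqZeroExt ℤ (AA A) →+* ℤ where
  toFun := TrivSqZeroExt.fst
  map_one' := TrivSqZeroExt.fst_one
  map_mul' := TrivSqZeroExt.fst_mul
  map_zero' := TrivSqZeroExt.fst_zero
  map_add' := TrivSqZeroExt.fst_add

theorem sum_eq_zero {G Q A : Type*} [Group G] [Finite G] [CommGroup Q] [Fintype Q] [CommGroup A]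
    (p : G →* Q) (hp : Function.Surjective p) (hker : p.ker ≤ commutator G)
    (F : G → Q → AA A) (hF : ∀ g h q, F (g * h) q = F g q + F h ((p g)⁻¹ * q)) (g : G) :
    ∑ q, F g q = 0 := by
  classical
  obtain ⟨ι, hι⟩ : ∃ ι : MonoidAlgebra ℤ Q →+* MonoidAlgebra (TrivSqZeroExt ℤ (AA A)) Q,
      ι = mapRingHom Q (Int.castRingHom _) := ⟨_, rfl⟩
  obtain ⟨π, hπ⟩ : ∃ π : MonoidAlgebra (TrivSqZeroExt ℤ (AA A)) Q →+* MonoidAlgebra ℤ Q,
      π = mapRingHom Q (fstRH A) := ⟨_, rfl⟩
  obtain ⟨δ, hδdef⟩ : ∃ δ : G → MonoidAlgebra (TrivSqZeroExt ℤ (AA A)) Q,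
      δ = fun g => ∑ q, single q (TrivSqZeroExt.inr (F g q)) + single (p g) 1 - 1 := ⟨_, rfl⟩
  have hπι : ∀ r, π (ι r) = r := by
    intro r
    induction r using MonoidAlgebra.induction_linear with
    | zero => simp
    | add x y hx hy => rw [map_add, map_add, hx, hy]
    | single q k =>
      rw [hι, hπ, mapRingHom_single, mapRingHom_single]
      congr 1
  have hbr : ∀ g, br p ι g = single (p g) 1 := by
    intro g
    rw [br, hι, mapRingHom_single, map_one]
  have hδ : ∀ g h, δ (g * h) = δ g + br p ι g * δ h := by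
    intro g h
    rw [hbr, hδdef]
    simp only
    rw [mul_sub, mul_add, Finset.mul_sum, mul_one]
    simp only [single_mul_single, one_mul, mul_one]
    have e1 : ∑ q, single (p g * q) (TrivSqZeroExt.inr (F h q) : TrivSqZeroExt ℤ (AA A)) =
        ∑ q, single q (TrivSqZeroExt.inr (F h ((p g)⁻¹ * q))) :=
      Fintype.sum_equiv (Equiv.mulLeft (p g)) _ _ (fun q => by simp)
    have e2 : ∑ q, single q (TrivSqZeroExt.inr (F (g * h) q) : TrivSqZeroExt ℤ (AA A)) =
        ∑ q, single q (TrivSqZeroExt.inr (F g q)) +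
          ∑ q, single q (TrivSqZeroExt.inr (F h ((p g)⁻¹ * q))) := by
      rw [← Finset.sum_add_distrib]
      refine Finset.sum_congr rfl (fun q _ => ?_)
      rw [hF, TrivSqZeroExt.inr_add, single_add]
    rw [e1, e2, map_mul]
    ring
  have hπδ : ∀ g, π (δ g) = single (p g) 1 - 1 := by
    intro g
    rw [hδdef, hπ]
    simp only [map_sub, map_add, map_sum, mapRingHom_single, map_one]
    have : ∀ q, single q ((fstRH A) (TrivSqZeroExt.inr (F g q))) = (0 : MonoidAlgebra ℤ Q) := by
      intro q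
      have : (fstRH A) (TrivSqZeroExt.inr (F g q)) = 0 := TrivSqZeroExt.fst_inr ℤ (F g q)
      rw [this, single_zero]
    simp [this]
  have main := core_main p hp hker ι π hπι δ hδ hπδ g
  have hN : ι (Nm ℤ Q) = Nm (TrivSqZeroExt ℤ (AA A)) Q := by
    rw [Nm, Nm, map_sum, hι]
    simp [mapRingHom_single]
  rw [hN] at main
  have h1 := Nm_mul_coeff_one (δ g)
  rw [main] at h1
  have h2 : aug (TrivSqZeroExt ℤ (AA A)) Q (δ g) = TrivSqZeroExt.inr (∑ q, F g q) := by
    rw [hδdef]
    simp only [map_sub, map_add, map_sum, aug_single, map_one]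
    rw [add_sub_cancel_right]
    exact (map_sum (TrivSqZeroExt.inrHom ℤ (AA A)) _ _).symm
  rw [h2] at h1
  apply TrivSqZeroExt.inr_injective (R := ℤ)
  rw [← h1]
  simp

end Cfsg.Agent.Lib.Helper57.PIT
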