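import Mathlib
import Cfsg.Prelude.Def_Transfer
import Cfsg.Prelude.Def_CaseTheorems
import Cfsg.Agent.Lib.Helper59.UniqueOdd
import Cfsg.Agent.Lib.Helper3.PGroup
import Cfsg.Agent.S0519
import Cfsg.Agent.S0016

set_option autoImplicit false

namespace Cfsg.Agent.Lib.Helper57.Symp

open Subgroup

theorem mem_zpowers_of_cyc' {A : Type*} [Group A] [Finite A] [IsCyclic A] (x z : A)
    (h : x ^ orderOf z = 1) : x ∈ Subgroup.zpowers z := by
  classical
  haveI : Fintype A := Fintype.ofFinite A
  have h1 := IsCyclic.card_pow_eq_one_le (α := A) (n := orderOf z) (orderOf_pos z)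
  have h2 : (Finset.univ.filter (fun u : A => u ∈ Subgroup.zpowers z)) ⊆
      Finset.univ.filter (fun u : A => u ^ orderOf z = 1) := by
    intro u hu
    simp only [Finset.mem_filter, Finset.mem_univ, true_and] at hu ⊢
    obtain ⟨k, rfl⟩ := hu
    show (z ^ k) ^ orderOf z = 1
    rw [← zpow_natCast, ← zpow_mul, mul_comm, zpow_mul, zpow_natCast, pow_orderOf_eq_one, one_zpow]
  have h3 : (Finset.univ.filter (fun u : A => u ∈ Subgroup.zpowers z)).card = orderOf z := by
    rw [← Nat.card_zpowers, Nat.card_eq_fintype_card, Fintype.card_subtype]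
  have h4 := Finset.eq_of_subset_of_card_le h2 (by rw [h3]; exact h1)
  have h5 : x ∈ Finset.univ.filter (fun u : A => u ^ orderOf z = 1) := by
    simp only [Finset.mem_filter, Finset.mem_univ, true_and]
    exact h
  rw [← h4] at h5
  simpa using h5

theorem mem_zpowers_of_cyc {G : Type*} [Group G] [Finite G] (B : Subgroup G) (hB : IsCyclic B)
    {p : ℕ} {x z : G} (hx : x ∈ B) (hz : z ∈ B) (hzo : orderOf z = p) (hxp : x ^ p = 1) :
    x ∈ Subgroup.zpowers z := by
  have h1 := mem_zpowers_of_cyc' (⟨x, hx⟩ : B) ⟨z, hz⟩ (by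
    rw [Subgroup.orderOf_mk, hzo]; exact Subtype.ext hxp)
  obtain ⟨k, hk⟩ := h1
  exact ⟨k, congrArg Subtype.val hk⟩

theorem zpowers_eq_of_mem {G : Type*} [Group G] [Finite G] {p : ℕ} [hp : Fact p.Prime] {z c : G}
    (hz : orderOf z = p) (hc : c ∈ zpowers z) (hc1 : c ≠ 1) : zpowers c = zpowers z := by
  have hcp : c ^ p = 1 := by
    obtain ⟨k, rfl⟩ := hc
    rw [← zpow_natCast, ← zpow_mul, mul_comm, zpow_mul, zpow_natCast, ← hz, pow_orderOf_eq_one,
      one_zpow]
  have hco : orderOf c = p := orderOf_eq_prime hcp hc1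
  apply Subgroup.eq_of_le_of_card_ge (zpowers_le.2 hc)
  rw [Nat.card_zpowers, Nat.card_zpowers, hz, hco]

/-- Recognition of an extraspecial `p`-group from elementwise data. -/
theorem isExtraspecial_of {E : Type*} [Group E] [Finite E] {p : ℕ} [hp : Fact p.Prime] {z : E}
    (hzo : orderOf z = p) (hcomm : ∀ a b : E, a * b * a⁻¹ * b⁻¹ ∈ zpowers z)
    (hzc : ∀ a : E, z * a = a * z) (hcent : ∀ c : E, (∀ a, a * c = c * a) → c ∈ zpowers z)
    (hna : ∃ a b : E, a * b ≠ b * a) (hP : IsPGroup p E) : Cfsg.IsExtraspecial p E := by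
  have hZc : ∀ c ∈ zpowers z, ∀ a : E, c * a = a * c := by
    rintro c ⟨k, rfl⟩ a
    exact ((show Commute z a from hzc a).zpow_left k).eq
  have hcenter : center E = zpowers z := by
    ext c
    rw [mem_center_iff]
    constructor
    · intro h; exact hcent c h
    · intro h a; exact (hZc c h a).symm
  have hcard : Nat.card (center E) = p := by rw [hcenter, Nat.card_zpowers, hzo]
  have hne1 : ∀ a b : E, a * b ≠ b * a → a * b * a⁻¹ * b⁻¹ ≠ 1 := by
    intro a b hab h
    apply hab
    calc a * b = (a * b * a⁻¹ * b⁻¹) * (b * a) := by group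
      _ = b * a := by rw [h, one_mul]
  have hcomm_eq : commutator E = center E := by
    apply le_antisymm
    · rw [commutator_def, Subgroup.commutator_le]
      intro a _ b _
      rw [commutatorElement_def, hcenter]
      exact hcomm a b
    · obtain ⟨a, b, hab⟩ := hna
      have h1 := zpowers_eq_of_mem hzo (hcomm a b) (hne1 a b hab)
      rw [hcenter, ← h1, zpowers_le, ← commutatorElement_def]
      exact Subgroup.commutator_mem_commutator (mem_top a) (mem_top b)
  refine ⟨⟨hP, ?_, hcomm_eq⟩, hcard⟩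
  apply le_antisymm
  · intro x hx
    by_contra hxc
    rw [mem_center_iff] at hxc
    push Not at hxc
    obtain ⟨b, hb⟩ := hxc
    have key : ∀ (y : E) (c : E), (∀ a, c * a = a * c) →
        y * (c * b) * y⁻¹ * b⁻¹ = (y * b * y⁻¹ * b⁻¹) * c := by
      intro y c hc
      calc y * (c * b) * y⁻¹ * b⁻¹ = (y * c) * (b * y⁻¹ * b⁻¹) := by group
        _ = (c * y) * (b * y⁻¹ * b⁻¹) := by rw [hc y]
        _ = c * (y * b * y⁻¹ * b⁻¹) := by group
        _ = _ := hc _
    let φ : E →* E := MonoidHom.mk' (fun y => y * b * y⁻¹ * b⁻¹) (by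
      intro y1 y2
      rw [← key y1 _ (hZc _ (hcomm y2 b))]
      group)
    have hφ : ∀ y, φ y = y * b * y⁻¹ * b⁻¹ := fun y => rfl
    have hφ1 : ∀ y, φ y = 1 ↔ y ∈ centralizer ({b} : Set E) := by
      intro y
      rw [hφ, mem_centralizer_singleton_iff]
      constructor
      · intro h
        calc y * b = (y * b * y⁻¹ * b⁻¹) * (b * y) := by group
          _ = b * y := by rw [h, one_mul]
      · intro h
        rw [h]; group
    have hxM : x ∉ centralizer ({b} : Set E) := by
      rw [mem_centralizer_singleton_iff]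
      exact fun h => hb h.symm
    have hco : IsCoatom (centralizer ({b} : Set E)) := by
      refine ⟨fun h => hxM (h ▸ mem_top x), ?_⟩
      intro K hK
      obtain ⟨hle, k, hkK, hkM⟩ := SetLike.lt_iff_le_and_exists.1 hK
      have hk1 : φ k ≠ 1 := fun h => hkM ((hφ1 k).1 h)
      have hz' := zpowers_eq_of_mem hzo (hcomm k b) hk1
      rw [eq_top_iff]
      intro y _
      have hy : φ y ∈ zpowers (φ k) := by
        rw [hφ k, hz']; exact hcomm y b
      obtain ⟨i, hi⟩ := hy
      have h3 : (k ^ i)⁻¹ * y ∈ centralizer ({b} : Set E) := by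
        rw [← hφ1, map_mul, map_inv, map_zpow]
        simp only at hi
        rw [hi, inv_mul_cancel]
      have h4 := K.mul_mem (K.zpow_mem hkK i) (hle h3)
      rwa [mul_inv_cancel_left] at h4
    exact hxM (frattini_le_coatom hco hx)
  · rw [← hcomm_eq]
    exact Cfsg.Agent.Lib.Helper3.commutator_le_frattini hP

/-- subgroup version -/
theorem isExtraspecial_of_sub {G : Type*} [Group G] [Finite G] {p : ℕ} [hp : Fact p.Prime]
    {R : Subgroup G} {z : G} (hzR : z ∈ R) (hzo : orderOf z = p)
    (hcomm : ∀ a ∈ R, ∀ b ∈ R, a * b * a⁻¹ * b⁻¹ ∈ zpowers z)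
    (hzc : ∀ a ∈ R, z * a = a * z) (hcent : ∀ c ∈ R, (∀ a ∈ R, a * c = c * a) → c ∈ zpowers z)
    (hna : ∃ a ∈ R, ∃ b ∈ R, a * b ≠ b * a) (hP : IsPGroup p R) : Cfsg.IsExtraspecial p R := by
  have hsub : ∀ c : R, (c : G) ∈ zpowers z → c ∈ zpowers (⟨z, hzR⟩ : R) := by
    rintro c ⟨k, hk⟩
    exact ⟨k, Subtype.ext (by simpa using hk)⟩
  apply isExtraspecial_of (z := (⟨z, hzR⟩ : R))
  · rw [Subgroup.orderOf_mk, hzo]
  · intro a b
    exact hsub _ (hcomm a a.2 b b.2)
  · intro a; exact Subtype.ext (hzc a a.2)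
  · intro c hc
    exact hsub _ (hcent c c.2 (fun a ha => congrArg Subtype.val (hc ⟨a, ha⟩)))
  · obtain ⟨a, ha, b, hb, hab⟩ := hna
    exact ⟨⟨a, ha⟩, ⟨b, hb⟩, fun h => hab (congrArg Subtype.val h)⟩
  · exact hP

/-- `p`-groups all of whose abelian normal subgroups are cyclic -/
theorem classify {R : Type*} [Group R] [Finite R] {p : ℕ} [hp : Fact p.Prime]
    (hR : IsPGroup p R)
    (hn : ∀ A : Subgroup R, A.Normal → IsMulCommutative A → IsCyclic A) :
    IsCyclic R ∨ (p = 2 ∧ ((∃ n : ℕ, Nonempty (R ≃* QuaternionGroup n)) ∨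
      (∃ n : ℕ, 8 ≤ n ∧ Nonempty (R ≃* DihedralGroup n)) ∨ Cfsg.IsQuasiDihedral R)) := by
  by_cases hm : ∃ B : Subgroup R, IsMulCommutative B ∧ ¬ IsCyclic B
  · right
    exact Cfsg.Agent.S0519.result p hR hn hm
  · push Not at hm
    have huniq : ∀ H K : Subgroup R, Nat.card H = p → Nat.card K = p → H = K := by
      intro H K hH hK
      have hnt : Nontrivial R := by
        by_contra hcon
        rw [not_nontrivial_iff_subsingleton] at hcon
        have : Nat.card H = 1 := Nat.card_eq_one_iff_unique.2 ⟨inferInstance, ⟨1⟩⟩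
        have := hp.out.one_lt
        omega
      obtain ⟨z, hzc, hzo⟩ := Cfsg.Agent.Lib.Helper59.exists_central_orderOf_eq hR
      have key : ∀ H : Subgroup R, Nat.card H = p → H = zpowers z := by
        intro H hH
        apply Subgroup.eq_of_le_of_card_ge
        · intro h hh
          have hcomm : IsMulCommutative (closure ({h, z} : Set R)) := by
            apply Subgroup.isMulCommutative_closure
            have hz' := mem_center_iff.1 hzc
            intro x hx y hy
            rcases hx with rfl | rfl <;> rcases hy with rfl | rfl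
            · rfl
            · exact hz' _
            · exact (hz' _).symm
            · rfl
          have hcyc := hm _ hcomm
          refine mem_zpowers_of_cyc _ hcyc (subset_closure (by simp)) (subset_closure (by simp))
            hzo ?_
          have h1 : (⟨h, hh⟩ : H) ^ Nat.card H = 1 := pow_card_eq_one'
          rw [hH] at h1
          exact congrArg Subtype.val h1
        · rw [Nat.card_zpowers, hzo, hH]
      rw [key H hH, key K hK]
    rcases Cfsg.Agent.S0016.result p hR huniq with h | ⟨h2, n, hn⟩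
    · left; exact h
    · right; exact ⟨h2, Or.inl ⟨_, hn⟩⟩

end Cfsg.Agent.Lib.Helper57.Symp
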