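import Mathlib
import Cfsg.Agent.Lib.Helper57.Symp1
import Cfsg.Agent.Lib.Helper36.CentralAutRel

set_option autoImplicit false

namespace Cfsg.Agent.Lib.Helper57.Symp

open Subgroup

theorem q8_facts : ∃ c : QuaternionGroup 2, c ^ 2 = 1 ∧ (∀ x, c * x = x * c) ∧
    (∀ x : QuaternionGroup 2, x ^ 2 = 1 ∨ x ^ 2 = c) ∧
    (∀ x y : QuaternionGroup 2, x * y * x⁻¹ * y⁻¹ = 1 ∨ x * y * x⁻¹ * y⁻¹ = c) ∧
    ∃ x y : QuaternionGroup 2, x * y ≠ y * x :=
  ⟨QuaternionGroup.a 2, by decide, by decide, by decide, by decide, by decide⟩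

variable {G : Type*} [Group G]

theorem zc {z : G} (hzc : ∀ g : G, z * g = g * z) : ∀ c ∈ zpowers z, ∀ a : G, c * a = a * c := by
  rintro c ⟨k, rfl⟩ a
  exact ((show Commute z a from hzc a).zpow_left k).eq

/-- preimage of `Ω₁(Z(G/⟨z⟩))` -/
def LL (p : ℕ) (z : G) (hzc : ∀ g : G, z * g = g * z) : Subgroup G where
  carrier := {x | x ^ p ∈ zpowers z ∧ ∀ g : G, g * x * g⁻¹ * x⁻¹ ∈ zpowers z}
  one_mem' := ⟨by simp, by intro g; simp⟩
  mul_mem' := by
    rintro x y ⟨hx1, hx2⟩ ⟨hy1, hy2⟩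
    refine ⟨?_, fun g => ?_⟩
    · have h1 := Cfsg.Agent.Lib.Helper59.mul_pow_of_central_comm x y (y * x * y⁻¹ * x⁻¹)
        (by group) (zc hzc _ (hx2 y)) p
      rw [h1]
      exact mul_mem (pow_mem (hx2 y) _) (mul_mem hx1 hy1)
    · have h2 : g * (x * y) * g⁻¹ * (x * y)⁻¹ =
          (g * x * g⁻¹) * ((g * y * g⁻¹ * y⁻¹) * x⁻¹) := by group
      rw [h2, zc hzc _ (hy2 g), ← mul_assoc]
      exact mul_mem (hx2 g) (hy2 g)
  inv_mem' := by
    rintro x ⟨hx1, hx2⟩
    refine ⟨by rw [inv_pow]; exact inv_mem hx1, fun g => ?_⟩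
    have h2 : g * x⁻¹ * g⁻¹ * x⁻¹⁻¹ = x⁻¹ * ((g * x * g⁻¹ * x⁻¹)⁻¹ * x) := by group
    rw [h2, zc hzc _ (inv_mem (hx2 g)), inv_mul_cancel_left]
    exact inv_mem (hx2 g)

theorem main [Finite G] {p : ℕ} [hp : Fact p.Prime] (hG : IsPGroup p G)
    (hsymp : ∀ A : Subgroup G, A.Characteristic → IsMulCommutative A → IsCyclic A) :
    ∃ E R : Subgroup G, (∀ e ∈ E, ∀ r ∈ R, e * r = r * e) ∧ E ⊔ R = ⊤ ∧
      (E = ⊥ ∨ Cfsg.IsExtraspecial p ↥E) ∧ (IsCyclic R ∨ (p = 2 ∧ 16 ≤ Nat.card R ∧
        ((∃ m : ℕ, Nonempty (↥R ≃* DihedralGroup m)) ∨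
          (∃ m : ℕ, Nonempty (↥R ≃* QuaternionGroup m)) ∨ Cfsg.IsQuasiDihedral ↥R))) := by
  rcases subsingleton_or_nontrivial G with hs | hnt
  · refine ⟨⊥, ⊤, ?_, bot_sup_eq _, Or.inl rfl, Or.inl inferInstance⟩
    intro e _ r _
    exact Subsingleton.elim _ _
  obtain ⟨z, hzcen, hzo⟩ := Cfsg.Agent.Lib.Helper59.exists_central_orderOf_eq hG
  have hzc : ∀ g, z * g = g * z := fun g => (mem_center_iff.1 hzcen g).symm
  have hZc := zc hzc
  have hcen_cyc : IsCyclic (center G) := hsymp _ inferInstance inferInstance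
  have hF1 : ∀ c, (∀ g, c * g = g * c) → c ^ p = 1 → c ∈ zpowers z := fun c hc hcp =>
    mem_zpowers_of_cyc (center G) hcen_cyc (mem_center_iff.2 fun g => (hc g).symm) hzcen hzo hcp
  have hzp : z ^ p = 1 := by rw [← hzo]; exact pow_orderOf_eq_one z
  have hZp : ∀ c ∈ zpowers z, c ^ p = 1 := by
    rintro c ⟨k, rfl⟩
    show (z ^ k) ^ p = 1
    rw [← zpow_natCast, ← zpow_mul, mul_comm, zpow_mul, zpow_natCast, hzp, one_zpow]
  have hchar : ∀ (α : G ≃* G), ∀ c ∈ zpowers z, α c ∈ zpowers z := by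
    intro α c hc
    apply hF1
    · intro g
      have h2 := congrArg α (hZc c hc (α.symm g))
      simpa using h2
    · rw [← map_pow, hZp c hc, map_one]
  obtain ⟨L, hL⟩ : ∃ L, L = LL p z hzc := ⟨_, rfl⟩
  have hmemL : ∀ x, x ∈ L ↔ x ^ p ∈ zpowers z ∧ ∀ g, g * x * g⁻¹ * x⁻¹ ∈ zpowers z := by
    intro x; rw [hL]; rfl
  have hLchar : L.Characteristic := by
    rw [characteristic_iff_le_comap]
    intro α x hx
    rw [mem_comap, hmemL]
    rw [hmemL] at hx
    refine ⟨?_, fun g => ?_⟩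
    · have := hchar α _ hx.1; simpa using this
    · have := hchar α _ (hx.2 (α.symm g)); simpa using this
  obtain ⟨ZL, hZL⟩ : ∃ ZL, ZL = L ⊓ centralizer (L : Set G) := ⟨_, rfl⟩
  have hZLchar : ZL.Characteristic := by rw [hZL]; infer_instance
  have hZLc : ∀ c ∈ ZL, ∀ x ∈ L, x * c = c * x := by
    intro c hc x hx
    rw [hZL] at hc
    exact mem_centralizer_iff.1 hc.2 x hx
  have hZLL : ZL ≤ L := by rw [hZL]; exact inf_le_left
  have hZLcomm : IsMulCommutative ZL :=
    ⟨⟨fun a b => Subtype.ext (hZLc b b.2 a (hZLL a.2))⟩⟩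
  have hZLcyc := hsymp ZL hZLchar hZLcomm
  have hzL : z ∈ L := by
    rw [hmemL]
    refine ⟨by rw [hzp]; exact one_mem _, fun g => ?_⟩
    rw [← hzc g]; simp
  have hzZL : z ∈ ZL := by
    rw [hZL]
    exact ⟨hzL, mem_centralizer_iff.2 fun x _ => (hzc x).symm⟩
  have hF2 : ∀ b ∈ ZL, b ^ p = 1 → b ∈ zpowers z := fun b hb hbp =>
    mem_zpowers_of_cyc ZL hZLcyc hb hzZL hzo hbp
  have hnorm : ∀ E : Subgroup G, zpowers z ≤ E → E ≤ L → E.Normal := by
    intro E h1 h2
    refine ⟨fun n hn g => ?_⟩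
    have h3 := E.mul_mem (h1 (((hmemL n).1 (h2 hn)).2 g)) hn
    simpa using h3
  -- a maximal complement
  let S : Set (Subgroup G) := {E | zpowers z ≤ E ∧ E ≤ L ∧ E ⊓ ZL ≤ zpowers z}
  have hSne : S.Nonempty := ⟨zpowers z, le_rfl, zpowers_le.2 hzL, inf_le_left⟩
  obtain ⟨E, ⟨hE1, hE2, hE3⟩, hmax⟩ := (wellFounded_gt (α := Subgroup G)).has_min S hSne
  have hEn : E.Normal := hnorm E hE1 hE2
  have hdec : ∀ x ∈ L, ∃ e ∈ E, ∃ c ∈ ZL, x = e * c := by
    intro x hx
    by_contra hcon
    push Not at hcon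
    have hxE : x ∉ E := fun h => hcon x h 1 (one_mem _) (mul_one x).symm
    have hS' : E ⊔ zpowers x ∈ S := by
      refine ⟨le_sup_of_le_left hE1, sup_le hE2 (zpowers_le.2 hx), ?_⟩
      rintro v ⟨hv1, hv2⟩
      have hv1' : v ∈ ((E ⊔ zpowers x : Subgroup G) : Set G) := hv1
      rw [normal_mul, Set.mem_mul] at hv1'
      obtain ⟨e, he, w, ⟨k, hkw⟩, hew⟩ := hv1'
      change x ^ k = w at hkw
      have hv2' : v ∈ ZL := hv2
      by_cases hk : (p : ℤ) ∣ k
      · obtain ⟨j, rfl⟩ := hk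
        have h1 : x ^ ((p : ℤ) * j) ∈ zpowers z := by
          rw [zpow_mul, zpow_natCast]; exact zpow_mem ((hmemL x).1 hx).1 j
        rw [hkw] at h1
        exact hE3 ⟨hew ▸ E.mul_mem he (hE1 h1), hv2'⟩
      · exfalso
        have hcop : IsCoprime k (p : ℤ) :=
          ((Nat.prime_iff_prime_int.1 hp.out).coprime_iff_not_dvd.2 hk).symm
        obtain ⟨a, b, hab⟩ := hcop
        have hw : w = e⁻¹ * v := by rw [← hew]; group
        have hcomm : Commute e⁻¹ v := (show Commute e v from hZLc v hv2' e (hE2 he)).inv_left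
        have hxp := ((hmemL x).1 hx).1
        have hx1 : x = (e⁻¹ ^ a * (x ^ p) ^ b) * v ^ a := by
          calc x = x ^ (a * k + b * p) := by rw [hab, zpow_one]
            _ = (x ^ k) ^ a * (x ^ p) ^ b := by
                rw [zpow_add, mul_comm a k, zpow_mul, mul_comm b (p : ℤ), zpow_mul, zpow_natCast]
            _ = (e⁻¹ ^ a * v ^ a) * (x ^ p) ^ b := by rw [hkw, hw, hcomm.mul_zpow]
            _ = e⁻¹ ^ a * ((x ^ p) ^ b * v ^ a) := by
                rw [mul_assoc, ← hZc _ (zpow_mem hxp b)]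
            _ = _ := by rw [mul_assoc]
        exact hcon _ (E.mul_mem (E.zpow_mem (E.inv_mem he) a) (hE1 (zpow_mem hxp b))) _
          (ZL.zpow_mem hv2' a) hx1
    have hlt : E ⊔ zpowers x > E := by
      refine lt_of_le_of_ne le_sup_left fun h => hxE ?_
      rw [h]
      exact mem_sup_right (mem_zpowers x)
    exact hmax _ hS' hlt
  have hC1 : ∀ x ∈ L, (∀ e ∈ E, e * x = x * e) → x ∈ ZL := by
    intro x hx hxe
    rw [hZL]
    refine ⟨hx, mem_centralizer_iff.2 fun l hl => ?_⟩
    obtain ⟨e, he, c, hc, rfl⟩ := hdec l hl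
    calc e * c * x = e * (c * x) := mul_assoc _ _ _
      _ = e * (x * c) := by rw [hZLc c hc x hx]
      _ = (e * x) * c := (mul_assoc _ _ _).symm
      _ = (x * e) * c := by rw [hxe e he]
      _ = x * (e * c) := mul_assoc _ _ _
  obtain ⟨R, hR⟩ : ∃ R, R = centralizer (E : Set G) := ⟨_, rfl⟩
  have hRc : ∀ e ∈ E, ∀ r ∈ R, e * r = r * e := by
    intro e he r hr
    rw [hR] at hr
    exact mem_centralizer_iff.1 hr e he
  have hES : (∀ e ∈ E, ∀ g, e * g = g * e) ∨ Cfsg.IsExtraspecial p ↥E := by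
    by_cases hab : ∀ a ∈ E, ∀ b ∈ E, a * b = b * a
    · left
      intro e he g
      exact hZc e (hE3 ⟨he, hC1 e (hE2 he) (fun e' he' => hab e' he' e he)⟩) g
    · right
      push Not at hab
      refine isExtraspecial_of_sub (hE1 (mem_zpowers z)) hzo ?_ (fun a _ => hzc a) ?_ hab
        (hG.to_subgroup E)
      · intro a _ b hb
        exact ((hmemL b).1 (hE2 hb)).2 a
      · intro c hc hcc
        exact hE3 ⟨hc, hC1 c (hE2 hc) hcc⟩
  have hdecG : ∀ g : G, ∃ e ∈ E, ∃ r ∈ R, g = e * r := by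
    intro g
    rcases hES with h | h
    · refine ⟨1, one_mem _, g, ?_, (one_mul g).symm⟩
      rw [hR]
      exact mem_centralizer_iff.2 fun e he => h e he g
    · have h1 := Cfsg.Agent.Lib.Helper36.mem_sup_centralizer_of_commutator_central E h.1.2.2 h.2 g
        (by
          intro e he
          have h2 := ((hmemL e).1 (hE2 he)).2 g
          exact ⟨hE1 h2, mem_centralizer_iff.2 fun x _ => (hZc _ h2 x).symm⟩)
      have h1' : g ∈ ((E ⊔ centralizer (E : Set G) : Subgroup G) : Set G) := h1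
      rw [normal_mul, Set.mem_mul] at h1'
      obtain ⟨e, he, r, hr, her⟩ := h1'
      exact ⟨e, he, r, by rw [hR]; exact hr, her.symm⟩
  have hRL : ∀ x ∈ L, x ∈ R → x ∈ ZL := fun x hx hxR => hC1 x hx (fun e he => hRc e he x hxR)
  have hZn : (zpowers z).Normal := hnorm _ le_rfl (zpowers_le.2 hzL)
  have hC3 : ∀ A : Subgroup G, A ≤ R → (∀ r ∈ R, ∀ a ∈ A, r * a * r⁻¹ ∈ A) →
      (∀ a ∈ A, ∀ b ∈ A, a * b = b * a) → ∀ a ∈ A, a ^ p = 1 → a ∈ zpowers z := by
    intro A hAR hAn hAc
    let Om : Subgroup G :=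
      { carrier := {a | a ∈ A ∧ a ^ p = 1}
        one_mem' := ⟨one_mem _, one_pow _⟩
        mul_mem' := by
          rintro a b ⟨ha, hap⟩ ⟨hb, hbp⟩
          exact ⟨mul_mem ha hb, by
            rw [(show Commute a b from hAc a ha b hb).mul_pow, hap, hbp, one_mul]⟩
        inv_mem' := by
          rintro a ⟨ha, hap⟩
          exact ⟨inv_mem ha, by rw [inv_pow, hap, inv_one]⟩ }
    have hOmn : Om.Normal := by
      refine ⟨fun a ha g => ?_⟩
      obtain ⟨e, he, r, hr, rfl⟩ := hdecG g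
      have h1 : r * a * r⁻¹ ∈ A := hAn r hr a ha.1
      have h2 : e * (r * a * r⁻¹) = (r * a * r⁻¹) * e := hRc e he _ (hAR h1)
      have h3 : e * r * a * (e * r)⁻¹ = r * a * r⁻¹ := by
        calc e * r * a * (e * r)⁻¹ = (e * (r * a * r⁻¹)) * e⁻¹ := by group
          _ = _ := by rw [h2, mul_inv_cancel_right]
      rw [h3]
      refine ⟨h1, ?_⟩
      rw [conj_pow, ha.2]; simp
    by_contra hcon
    push Not at hcon
    obtain ⟨a0, ha0, ha0p, ha0z⟩ := hcon
    have hQ : IsPGroup p (G ⧸ zpowers z) := hG.to_quotient _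
    have hNn : (Om.map (QuotientGroup.mk' (zpowers z))).Normal :=
      hOmn.map _ (QuotientGroup.mk'_surjective _)
    have hN : Om.map (QuotientGroup.mk' (zpowers z)) ≠ ⊥ := by
      intro h
      have h1 : QuotientGroup.mk' (zpowers z) a0 ∈ Om.map (QuotientGroup.mk' (zpowers z)) :=
        mem_map_of_mem _ ⟨ha0, ha0p⟩
      rw [h, mem_bot] at h1
      exact ha0z ((QuotientGroup.eq_one_iff a0).1 h1)
    have h5 := Cfsg.Agent.Lib.Helper3.normal_inf_center_ne_bot' hQ _ hN
    obtain ⟨⟨q, ⟨b, hb, hbq⟩, hqc⟩, hq1⟩ := Subgroup.ne_bot_iff_exists_ne_one.1 h5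
    have hbz : b ∉ zpowers z := by
      intro h
      apply hq1
      apply Subtype.ext
      show q = 1
      rw [← hbq]
      exact (QuotientGroup.eq_one_iff b).2 h
    have hbL : b ∈ L := by
      rw [hmemL]
      refine ⟨by rw [hb.2]; exact one_mem _, fun g => ?_⟩
      rw [← QuotientGroup.eq_one_iff]
      have h6 := mem_center_iff.1 hqc (QuotientGroup.mk' (zpowers z) g)
      rw [← hbq] at h6
      have h7 : ((g * b * g⁻¹ * b⁻¹ : G) : G ⧸ zpowers z) =
          (QuotientGroup.mk' (zpowers z) g * QuotientGroup.mk' (zpowers z) b) *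
            (QuotientGroup.mk' (zpowers z) g)⁻¹ * (QuotientGroup.mk' (zpowers z) b)⁻¹ := rfl
      rw [h7, h6]
      group
    exact hbz (hF2 b (hRL b hbL (hAR hb.1)) hb.2)
  have hRp : IsPGroup p R := hG.to_subgroup R
  have hn : ∀ A : Subgroup ↥R, A.Normal → IsMulCommutative A → IsCyclic A := by
    intro A hAn hAc
    have hAp : IsPGroup p A := hRp.to_subgroup A
    have key := hC3 (A.map R.subtype) (map_subtype_le A) (by
      rintro r hr _ ⟨a, ha, rfl⟩
      exact ⟨⟨r, hr⟩ * a * ⟨r, hr⟩⁻¹, hAn.conj_mem a ha _, rfl⟩) (by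
      rintro _ ⟨a, ha, rfl⟩ _ ⟨b, hb, rfl⟩
      exact congrArg (fun t : A => ((t : R) : G)) (hAc.is_comm.comm ⟨a, ha⟩ ⟨b, hb⟩))
    apply Cfsg.Agent.Lib.Helper59.isCyclic_of_unique_of_comm hAp
    · intro x y hx hy
      have hX : ((x : R) : G) ∈ zpowers z := key _ ⟨x, x.2, rfl⟩ (by
        have := pow_orderOf_eq_one x
        rw [hx] at this
        exact congrArg (fun t : A => ((t : R) : G)) this)
      have hY : ((y : R) : G) ∈ zpowers z := key _ ⟨y, y.2, rfl⟩ (by
        have := pow_orderOf_eq_one y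
        rw [hy] at this
        exact congrArg (fun t : A => ((t : R) : G)) this)
      have hX1 : ((x : R) : G) ≠ 1 := by
        intro h
        have : x = 1 := Subtype.ext (Subtype.ext h)
        rw [this, orderOf_one] at hx
        exact hp.out.one_lt.ne hx
      rw [← zpowers_eq_of_mem hzo hX hX1] at hY
      obtain ⟨k, hk⟩ := hY
      exact ⟨k, Subtype.ext (Subtype.ext (by simpa using hk))⟩
    · intro x y; exact hAc.is_comm.comm x y
  have hsup : E ⊔ R = ⊤ := by
    rw [eq_top_iff]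
    intro g _
    obtain ⟨e, he, r, hr, rfl⟩ := hdecG g
    exact mul_mem (mem_sup_left he) (mem_sup_right hr)
  -- the final structure of `R`
  have hfin : IsCyclic R ∨ (p = 2 ∧ 16 ≤ Nat.card R ∧
        ((∃ m : ℕ, Nonempty (↥R ≃* DihedralGroup m)) ∨
          (∃ m : ℕ, Nonempty (↥R ≃* QuaternionGroup m)) ∨ Cfsg.IsQuasiDihedral ↥R)) := by
    rcases classify hRp hn with h | ⟨h2, h | h | h⟩
    · left; exact h
    · obtain ⟨n, ⟨e⟩⟩ := h
      by_cases hn4 : 4 ≤ n
      · right
        refine ⟨h2, ?_, Or.inr (Or.inl ⟨n, ⟨e⟩⟩)⟩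
        have : NeZero n := ⟨by omega⟩
        rw [Nat.card_congr e.toEquiv, Nat.card_eq_fintype_card, QuaternionGroup.card]
        omega
      · have hord : orderOf (e.symm (QuaternionGroup.a 1)) = 2 * n := by
          rw [MulEquiv.orderOf_eq, QuaternionGroup.orderOf_a_one]
        have hpos := orderOf_pos (e.symm (QuaternionGroup.a 1))
        have hn0 : n ≠ 0 := by rintro rfl; omega
        have hn3 : n ≠ 3 := by
          rintro rfl
          obtain ⟨k, hk⟩ := IsPGroup.iff_orderOf.1 hRp (e.symm (QuaternionGroup.a 1))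
          rw [hord, h2] at hk
          have h3 : 3 ∣ 2 ^ k := ⟨2, by omega⟩
          have := Nat.Prime.dvd_of_dvd_pow Nat.prime_three h3
          omega
        have hn12 : n = 1 ∨ n = 2 := by omega
        rcases hn12 with rfl | rfl
        · left
          have := QuaternionGroup.quaternionGroup_one_isCyclic
          exact isCyclic_of_surjective e.symm e.symm.surjective
        · exfalso
          obtain ⟨c, hc2, hcc, hsq, hcm, x0, y0, hxy⟩ := q8_facts
          have hcR : ∀ r : R, e.symm c * r = r * e.symm c := by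
            intro r
            have h3 := congrArg e.symm (hcc (e r))
            simpa using h3
          have hcG : ∀ g : G, ((e.symm c : R) : G) * g = g * ((e.symm c : R) : G) := by
            intro g
            obtain ⟨e1, he1, r, hr, rfl⟩ := hdecG g
            have h3 : ((e.symm c : R) : G) * r = r * ((e.symm c : R) : G) :=
              congrArg Subtype.val (hcR ⟨r, hr⟩)
            have h4 := hRc e1 he1 _ (e.symm c).2
            rw [← mul_assoc, ← h4, mul_assoc, h3, mul_assoc]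
          have hcz : ((e.symm c : R) : G) ∈ zpowers z := by
            apply hF1 _ hcG
            rw [h2]
            have h3 := congrArg e.symm hc2
            rw [map_pow, map_one] at h3
            exact congrArg Subtype.val h3
          have hRL' : ∀ x ∈ R, x ∈ L := by
            intro x hx
            rw [hmemL]
            refine ⟨?_, fun g => ?_⟩
            · rw [h2]
              rcases hsq (e ⟨x, hx⟩) with h3 | h3
              · have h4 := congrArg e.symm h3
                rw [map_pow, map_one, MulEquiv.symm_apply_apply] at h4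
                have h5 : x ^ 2 = 1 := congrArg Subtype.val h4
                rw [h5]; exact one_mem _
              · have h4 := congrArg e.symm h3
                rw [map_pow, MulEquiv.symm_apply_apply] at h4
                have h5 : x ^ 2 = ((e.symm c : R) : G) := congrArg Subtype.val h4
                rw [h5]; exact hcz
            · obtain ⟨e1, he1, r, hr, rfl⟩ := hdecG g
              have h3 : r * x * r⁻¹ ∈ R := R.mul_mem (R.mul_mem hr hx) (R.inv_mem hr)
              have h4 := hRc e1 he1 _ h3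
              have h5 : e1 * r * x * (e1 * r)⁻¹ * x⁻¹ = r * x * r⁻¹ * x⁻¹ := by
                calc e1 * r * x * (e1 * r)⁻¹ * x⁻¹ = (e1 * (r * x * r⁻¹)) * e1⁻¹ * x⁻¹ := by group
                  _ = _ := by rw [h4, mul_inv_cancel_right]
              rw [h5]
              rcases hcm (e ⟨r, hr⟩) (e ⟨x, hx⟩) with h6 | h6
              · have h7 := congrArg e.symm h6
                simp only [map_mul, map_inv, MulEquiv.symm_apply_apply, map_one] at h7
                have h8 : r * x * r⁻¹ * x⁻¹ = 1 := congrArg Subtype.val h7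
                rw [h8]; exact one_mem _
              · have h7 := congrArg e.symm h6
                simp only [map_mul, map_inv, MulEquiv.symm_apply_apply] at h7
                have h8 : r * x * r⁻¹ * x⁻¹ = ((e.symm c : R) : G) := congrArg Subtype.val h7
                rw [h8]; exact hcz
          apply hxy
          have h9 := hZLc _ (hRL _ (hRL' _ (e.symm y0).2) (e.symm y0).2) _ (hRL' _ (e.symm x0).2)
          have h10 : e.symm x0 * e.symm y0 = e.symm y0 * e.symm x0 := Subtype.ext h9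
          rw [← map_mul, ← map_mul] at h10
          exact e.symm.injective h10
    · obtain ⟨n, hn8, ⟨e⟩⟩ := h
      right
      refine ⟨h2, ?_, Or.inl ⟨n, ⟨e⟩⟩⟩
      rw [Nat.card_congr e.toEquiv, DihedralGroup.nat_card]
      omega
    · right
      refine ⟨h2, ?_, Or.inr (Or.inr h)⟩
      obtain ⟨n, hn3, hcard, -⟩ := h
      rw [hcard]
      calc 16 = 2 ^ (3 + 1) := by norm_num
        _ ≤ 2 ^ (n + 1) := Nat.pow_le_pow_right (by norm_num) (by omega)
  rcases hES with h | h
  · refine ⟨⊥, R, ?_, ?_, Or.inl rfl, hfin⟩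
    · intro e he r _
      rw [mem_bot] at he
      rw [he, one_mul, mul_one]
    · rw [bot_sup_eq, hR, eq_top_iff]
      intro g _
      exact mem_centralizer_iff.2 fun e he => h e he g
  · exact ⟨E, R, hRc, hsup, Or.inr h, hfin⟩

end Cfsg.Agent.Lib.Helper57.Symp
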