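import Mathlib
import Cfsg.Agent.Lib.Helper57.FC12
import Cfsg.Agent.Lib.Helper57.FC8
import Cfsg.Agent.Lib.Helper40.TransferRed2
import Cfsg.Agent.Lib.Helper62.CharFunctor

set_option autoImplicit false

/-! Triple factorizations (Glauberman): lifting factorizations from constrained sections. -/

namespace Cfsg.Agent.Lib.Helper57.TF

open Cfsg Cfsg.Agent.Lib.Helper39

universe u

variable {p : ℕ} [Fact p.Prime]

theorem exists_constrained_quot {Y : Type u} [Group Y] [Finite Y] (S : Sylow p Y) (R : Subgroup Y)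
    [R.Normal] (hR : IsPGroup p R)
    (hc : (S : Subgroup Y) ⊓ Subgroup.centralizer (R : Set Y) ≤ R) :
    ∃ (D : Subgroup Y) (_ : D.Normal), (Nat.card D).Coprime p ∧
      Subgroup.centralizer ((pCore p (Y ⧸ D) : Subgroup (Y ⧸ D)) : Set (Y ⧸ D)) ≤
        pCore p (Y ⧸ D) := by
  have hRP : R ≤ pCore p Y := Cfsg.Agent.Lib.Helper40.le_pCore hR
  obtain ⟨D, hDn, hDc, hD⟩ := Cfsg.Agent.Lib.Helper40.exists_normal_coprime_of_inf_centralizer_le S
    ((inf_le_inf_left _ (Subgroup.centralizer_le hRP)).trans (hc.trans hRP))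
  refine ⟨D, hDn, hDc, ?_⟩
  intro c hc'
  obtain ⟨g, rfl⟩ := QuotientGroup.mk'_surjective D c
  have hPp : IsPGroup p (pCore p Y) := Cfsg.Agent.Lib.Helper14.isPGroup_pCore
  have hPmap : (pCore p Y).map (QuotientGroup.mk' D) ≤ pCore p (Y ⧸ D) := by
    have : ((pCore p Y).map (QuotientGroup.mk' D)).Normal :=
      (inferInstance : (pCore p Y).Normal).map _ (QuotientGroup.mk'_surjective D)
    exact Cfsg.Agent.Lib.Helper40.le_pCore (hPp.map _)
  have h1 : QuotientGroup.mk' D g ∈ Subgroup.centralizer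
      (((pCore p Y).map (QuotientGroup.mk' D) : Subgroup (Y ⧸ D)) : Set (Y ⧸ D)) :=
    Subgroup.centralizer_le hPmap hc'
  obtain ⟨h, hh, hhg⟩ := Cfsg.Agent.Lib.Helper14.exists_mem_centralizer_lift D hDc hPp h1
  rw [← hhg]
  obtain ⟨a, ha, d, hd, rfl⟩ := Subgroup.mem_sup_of_normal_right.mp (hD hh)
  have hd1 : QuotientGroup.mk' D d = 1 := (QuotientGroup.eq_one_iff d).mpr hd
  rw [map_mul, hd1, mul_one]
  exact hPmap ⟨a, ha, rfl⟩

omit [Fact p.Prime] in
theorem omegaOne_le {X : Type*} [Group X] (H : Subgroup X) : omegaOne p H ≤ H :=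
  (Subgroup.closure_le _).mpr (fun _ hx => hx.1)

omit [Fact p.Prime] in
theorem omegaOneZ_map_le {X Y : Type*} [Group X] [Group Y] (f : X →* Y) (S : Subgroup X) :
    (omegaOne p (S ⊓ Subgroup.centralizer (S : Set X))).map f ≤
      omegaOne p (S.map f ⊓ Subgroup.centralizer ((S.map f : Subgroup Y) : Set Y)) := by
  unfold omegaOne
  rw [MonoidHom.map_closure, Subgroup.closure_le]
  rintro _ ⟨x, ⟨hx, hxp⟩, rfl⟩
  apply Subgroup.subset_closure
  have hcen : f x ∈ Subgroup.centralizer ((S.map f : Subgroup Y) : Set Y) := by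
    rw [Subgroup.mem_centralizer_iff]
    rintro _ ⟨s, hs, rfl⟩
    rw [← map_mul, ← map_mul, Subgroup.mem_centralizer_iff.mp hx.2 s hs]
  exact ⟨⟨⟨x, hx.1, rfl⟩, hcen⟩, by rw [← map_pow, hxp, map_one]⟩

theorem lift_factorization {Y : Type u} [Group Y] [Finite Y] (S : Sylow p Y) (D : Subgroup Y)
    [D.Normal] (hD : (Nat.card D).Coprime p)
    {W : ∀ (Q : Type u) [Group Q], Subgroup Q} (hW : IsCharPFunctor.{u} p W)
    (T : Subgroup (Y ⧸ D)) (hT : T = (S : Subgroup Y).map (QuotientGroup.mk' D))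
    (hfac : ∀ x : Y ⧸ D, ∃ a ∈ Subgroup.centralizer
        ((omegaOne p (T ⊓ Subgroup.centralizer (T : Set (Y ⧸ D))) : Subgroup (Y ⧸ D)) : Set (Y ⧸ D)),
      ∃ b ∈ Subgroup.normalizer ((inducedFunctor (G := Y ⧸ D) W T : Subgroup (Y ⧸ D)) : Set (Y ⧸ D)),
        x = a * b) (y : Y) :
    ∃ a ∈ Subgroup.centralizer ((omegaOne p ((S : Subgroup Y) ⊓
        Subgroup.centralizer ((S : Subgroup Y) : Set Y)) : Subgroup Y) : Set Y),
      ∃ b ∈ Subgroup.normalizer ((inducedFunctor (G := Y) W (S : Subgroup Y) : Subgroup Y) : Set Y),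
        ∃ n ∈ D, y = a * b * n := by
  subst hT
  obtain ⟨a', ha', b', hb', hx⟩ := hfac (QuotientGroup.mk' D y)
  obtain ⟨a₀, rfl⟩ := QuotientGroup.mk'_surjective D a'
  obtain ⟨b₀, rfl⟩ := QuotientGroup.mk'_surjective D b'
  have hZp : IsPGroup p (omegaOne p ((S : Subgroup Y) ⊓
      Subgroup.centralizer ((S : Subgroup Y) : Set Y)) : Subgroup Y) :=
    S.2.to_le ((omegaOne_le _).trans inf_le_left)
  obtain ⟨a, ha, haa⟩ := Cfsg.Agent.Lib.Helper14.exists_mem_centralizer_lift D hD hZp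
    (Subgroup.centralizer_le (omegaOneZ_map_le (QuotientGroup.mk' D) (S : Subgroup Y)) ha')
  rw [Cfsg.Agent.Lib.Helper40.ind_map hW (QuotientGroup.mk' D) (S : Subgroup Y) S.2
    (Cfsg.Agent.Lib.Helper62.injOn_mk'_of_coprime D hD S.2)] at hb'
  obtain ⟨b, hb, hbb⟩ := Cfsg.Agent.Lib.Helper14.exists_mem_normalizer_lift D hD
    (S.2.to_le (Cfsg.Agent.Lib.Helper40.ind_le _)) hb'
  refine ⟨a, ha, b, hb, (a * b)⁻¹ * y, ?_, by group⟩
  apply QuotientGroup.eq.mp
  show QuotientGroup.mk' D (a * b) = QuotientGroup.mk' D y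
  rw [hx, map_mul, haa, hbb]

end Cfsg.Agent.Lib.Helper57.TF
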