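import Mathlib
import Cfsg.Agent.Lib.Helper57.TF1

set_option autoImplicit false

/-! Triple factorizations (Glauberman): conjugates of `Ω₁Z(S)`. -/

namespace Cfsg.Agent.Lib.Helper57.TF

open Cfsg Cfsg.Agent.Lib.Helper39

universe u

variable {p : ℕ} [Fact p.Prime]

/-- the factorization hypothesis `G* = C(Ω₁Z(S*)) N(W(S*))` in constrained sections -/
def FacCN (p : ℕ) (G : Type u) [Group G] (W : ∀ (Q : Type u) [Group Q], Subgroup Q) : Prop :=
  ∀ (K R : Subgroup G) [hR : (R.subgroupOf K).Normal],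
    Subgroup.centralizer ((pCore p (↥K ⧸ R.subgroupOf K) : Subgroup (↥K ⧸ R.subgroupOf K)) :
      Set (↥K ⧸ R.subgroupOf K)) ≤ pCore p (↥K ⧸ R.subgroupOf K) →
    ∀ T : Sylow p (↥K ⧸ R.subgroupOf K), ∀ x : (↥K ⧸ R.subgroupOf K),
      ∃ a ∈ Subgroup.centralizer ((omegaOne p ((T : Subgroup (↥K ⧸ R.subgroupOf K)) ⊓
        Subgroup.centralizer (((T : Subgroup (↥K ⧸ R.subgroupOf K)) :
          Subgroup (↥K ⧸ R.subgroupOf K)) : Set (↥K ⧸ R.subgroupOf K))) :
          Subgroup (↥K ⧸ R.subgroupOf K)) : Set (↥K ⧸ R.subgroupOf K)),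
      ∃ b ∈ Subgroup.normalizer ((inducedFunctor (G := (↥K ⧸ R.subgroupOf K)) W
        (T : Subgroup (↥K ⧸ R.subgroupOf K)) : Subgroup (↥K ⧸ R.subgroupOf K)) :
          Set (↥K ⧸ R.subgroupOf K)), x = a * b

omit [Fact p.Prime] in
theorem omegaOneZ_subtype {G : Type*} [Group G] (K S : Subgroup G) (hSK : S ≤ K) :
    omegaOne p (S ⊓ Subgroup.centralizer (S : Set G)) ≤
      (omegaOne p (S.subgroupOf K ⊓ Subgroup.centralizer ((S.subgroupOf K : Subgroup K) : Set K))).map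
        K.subtype := by
  unfold omegaOne
  rw [MonoidHom.map_closure, Subgroup.closure_le]
  rintro x ⟨hx, hxp⟩
  apply Subgroup.subset_closure
  have hcen : (⟨x, hSK hx.1⟩ : K) ∈
      Subgroup.centralizer ((S.subgroupOf K : Subgroup K) : Set K) := by
    rw [Subgroup.mem_centralizer_iff]
    intro s hs
    apply Subtype.ext
    exact Subgroup.mem_centralizer_iff.mp hx.2 s.1 hs
  exact ⟨⟨x, hSK hx.1⟩, ⟨⟨hx.1, hcen⟩, Subtype.ext hxp⟩, rfl⟩

theorem conj_eq_of_centric {G : Type u} [Group G] [Finite G] (S : Sylow p G)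
    {W : ∀ (Q : Type u) [Group Q], Subgroup Q} (hW : IsCharPFunctor.{u} p W)
    (hfac : FacCN p G W) (R : Subgroup G) (hRS : R ≤ (S : Subgroup G))
    (hSR : (S : Subgroup G) ≤ Subgroup.normalizer (R : Set G))
    (hc : (S : Subgroup G) ⊓ Subgroup.centralizer (R : Set G) ≤ R)
    (y : G) (hy : y ∈ Subgroup.normalizer (R : Set G)) (z : G)
    (hz : z ∈ omegaOne p ((S : Subgroup G) ⊓ Subgroup.centralizer ((S : Subgroup G) : Set G))) :
    ∃ b ∈ Subgroup.normalizer ((inducedFunctor (G := G) W (S : Subgroup G) : Subgroup G) : Set G),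
      y * z * y⁻¹ = b * z * b⁻¹ := by
  obtain ⟨K, hK⟩ : ∃ K : Subgroup G, K = Subgroup.normalizer (R : Set G) := ⟨_, rfl⟩
  rw [← hK] at hSR hy
  have hRn : (R.subgroupOf K).Normal := by rw [hK]; exact Subgroup.normal_in_normalizer
  have hRp : IsPGroup p (R.subgroupOf K) := (S.2.to_le hRS).comap_subtype
  have hcY : ((S.subtype hSR : Sylow p K) : Subgroup K) ⊓
      Subgroup.centralizer ((R.subgroupOf K : Subgroup K) : Set K) ≤ R.subgroupOf K := by
    intro x hx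
    apply hc
    have hcen : (x : G) ∈ Subgroup.centralizer (R : Set G) := by
      rw [Subgroup.mem_centralizer_iff]
      intro r hr
      have hrK : r ∈ K := hSR (hRS hr)
      exact congrArg Subtype.val (Subgroup.mem_centralizer_iff.mp hx.2 ⟨r, hrK⟩ hr)
    exact ⟨hx.1, hcen⟩
  obtain ⟨D, hDn, hDc, hDcon⟩ := exists_constrained_quot (S.subtype hSR) (R.subgroupOf K) hRp hcY
  have e : (D.map K.subtype).subgroupOf K = D :=
    Subgroup.comap_map_eq_self_of_injective K.subtype_injective D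
  obtain ⟨D', hD'⟩ : ∃ D' : Subgroup G, D'.subgroupOf K = D := ⟨_, e⟩
  subst hD'
  have hsurj := QuotientGroup.mk'_surjective (D'.subgroupOf K)
  obtain ⟨a, ha, b, hb, n, hn, hyab⟩ := lift_factorization (S.subtype hSR) (D'.subgroupOf K) hDc hW
    (((S.subtype hSR).mapSurjective hsurj : Sylow p (↥K ⧸ D'.subgroupOf K)) :
      Subgroup (↥K ⧸ D'.subgroupOf K)) (Sylow.coe_mapSurjective hsurj _)
    (hfac K D' hDcon ((S.subtype hSR).mapSurjective hsurj)) (⟨y, hy⟩⁻¹ : K)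
  -- `z` as an element of `K`
  obtain ⟨z', hz', hzz⟩ := omegaOneZ_subtype K (S : Subgroup G) hSR hz
  have hzR : z ∈ R := by
    apply hc
    have h1 := omegaOne_le (p := p) _ hz
    exact ⟨h1.1, Subgroup.centralizer_le hRS h1.2⟩
  have haz : z' * a = a * z' := Subgroup.mem_centralizer_iff.mp ha z' hz'
  have hbz : b⁻¹ * z' * b ∈ R.subgroupOf K := by
    have h1 : z' ∈ R.subgroupOf K := by
      show (z' : G) ∈ R
      have : (z' : G) = z := hzz
      rw [this]; exact hzR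
    have := hRn.conj_mem z' h1 b⁻¹
    rwa [inv_inv] at this
  have hdis : Disjoint (D'.subgroupOf K) (R.subgroupOf K) :=
    Subgroup.disjoint_of_coprime_natCard
      (Cfsg.Agent.Lib.Helper14.coprime_card_of_isPGroup hRp hDc).symm
  have hcomm : Commute n (b⁻¹ * z' * b) :=
    Subgroup.commute_of_normal_of_disjoint _ _ hDn hRn hdis n _ hn hbz
  have hyK : (⟨y, hy⟩ : K) = n⁻¹ * b⁻¹ * a⁻¹ := by
    have : (⟨y, hy⟩ : K) = ((⟨y, hy⟩ : K)⁻¹)⁻¹ := (inv_inv _).symm
    rw [this, hyab]; group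
  have hmain : (⟨y, hy⟩ : K) * z' * (⟨y, hy⟩ : K)⁻¹ = b⁻¹ * z' * b⁻¹⁻¹ := by
    have h1 : a⁻¹ * z' * a = z' := by rw [mul_assoc, haz, inv_mul_cancel_left]
    calc (⟨y, hy⟩ : K) * z' * (⟨y, hy⟩ : K)⁻¹
        = n⁻¹ * (b⁻¹ * (a⁻¹ * z' * a) * b) * n := by rw [hyK]; group
      _ = n⁻¹ * (b⁻¹ * z' * b) * n := by rw [h1]
      _ = n⁻¹ * (n * (b⁻¹ * z' * b)) := by rw [mul_assoc, hcomm.eq]
      _ = b⁻¹ * z' * b⁻¹⁻¹ := by group
  refine ⟨(b⁻¹ : K), ?_, ?_⟩
  · have h1 : (inducedFunctor (G := K) W ((S.subtype hSR : Sylow p K) : Subgroup K)).map K.subtype =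
        inducedFunctor (G := G) W (S : Subgroup G) := by
      rw [← Cfsg.Agent.Lib.Helper40.ind_map hW K.subtype _ (S.subtype hSR).2
        K.subtype_injective.injOn, Sylow.coe_subtype, Subgroup.subgroupOf_map_subtype,
        inf_of_le_left hSR]
    rw [← h1]
    exact Subgroup.le_normalizer_map K.subtype ⟨b⁻¹, Subgroup.inv_mem _ hb, rfl⟩
  · have := congrArg Subtype.val hmain
    have hz'' : (z' : G) = z := hzz
    simpa [hz''] using this

end Cfsg.Agent.Lib.Helper57.TF
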