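import Mathlib
import Cfsg.Agent.Lib.Helper57.TF2

set_option autoImplicit false

/-! Triple factorizations (Glauberman): the strongly closed subgroup `⟨Ω₁Z(S)^{N(W₁(S))}⟩`. -/

namespace Cfsg.Agent.Lib.Helper57.TF

open Cfsg Cfsg.Agent.Lib.Helper39 Cfsg.Agent.Lib.Helper57.FC

universe u

section VN

variable {G : Type*} [Group G]

/-- the subgroup generated by the `N`-conjugates of `Z` -/
def VN (N Z : Subgroup G) : Subgroup G :=
  Subgroup.closure {g | ∃ x ∈ N, ∃ z ∈ Z, g = x * z * x⁻¹}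

theorem conj_mem_VN {N Z : Subgroup G} {x z : G} (hx : x ∈ N) (hz : z ∈ Z) :
    x * z * x⁻¹ ∈ VN N Z := Subgroup.subset_closure ⟨x, hx, z, hz, rfl⟩

theorem le_VN (N Z : Subgroup G) : Z ≤ VN N Z := by
  intro z hz
  have := conj_mem_VN (N := N) N.one_mem hz
  simpa using this

theorem VN_le {N Z L : Subgroup G} (h : ∀ x ∈ N, ∀ z ∈ Z, x * z * x⁻¹ ∈ L) : VN N Z ≤ L := by
  unfold VN
  rw [Subgroup.closure_le]
  rintro _ ⟨x, hx, z, hz, rfl⟩
  exact h x hx z hz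

theorem le_normalizer_VN [Finite G] (N Z : Subgroup G) :
    N ≤ Subgroup.normalizer ((VN N Z : Subgroup G) : Set G) := by
  intro n hn
  rw [mem_normalizer_iff_cj]
  apply cj_eq_of_le
  rw [cj_le_iff]
  apply VN_le
  intro x hx z hz
  rw [mem_cj, inv_inv]
  have := conj_mem_VN (Z := Z) (N.mul_mem hn hx) hz
  have e : n * x * z * (n * x)⁻¹ = n * (x * z * x⁻¹) * n⁻¹ := by group
  rwa [e] at this

theorem map_normalClosure_eq {N Z : Subgroup G} :
    (Subgroup.normalClosure ((Z.subgroupOf N : Subgroup ↥N) : Set ↥N)).map N.subtype = VN N (Z ⊓ N) := by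
  unfold Subgroup.normalClosure VN
  rw [MonoidHom.map_closure]
  congr 1
  ext g
  constructor
  · rintro ⟨y, hy, rfl⟩
    rw [Group.mem_conjugatesOfSet_iff] at hy
    obtain ⟨a, ha, hconj⟩ := hy
    obtain ⟨c, rfl⟩ := isConj_iff.mp hconj
    exact ⟨c.1, c.2, a.1, ⟨ha, a.2⟩, rfl⟩
  · rintro ⟨x, hx, z, hz, rfl⟩
    refine ⟨(⟨x, hx⟩ : N) * ⟨z, hz.2⟩ * (⟨x, hx⟩ : N)⁻¹, ?_, rfl⟩
    rw [Group.mem_conjugatesOfSet_iff]
    exact ⟨⟨z, hz.2⟩, hz.1, isConj_iff.mpr ⟨_, rfl⟩⟩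

end VN

variable {p : ℕ} [Fact p.Prime]

theorem ctl_of_product {X : Type*} [Group X] [Finite X] (S : Sylow p X) {𝓗 : Set (Subgroup X)}
    {N₁ N₂ : Subgroup X} (h₁ : N₁ ∈ 𝓗) (h₂ : N₂ ∈ 𝓗) (hS₁ : (S : Subgroup X) ≤ N₁)
    (hS₂ : (S : Subgroup X) ≤ N₂) (hfac : ∀ x : X, ∃ a ∈ N₁, ∃ b ∈ N₂, x = a * b) :
    Ctl 𝓗 (S : Subgroup X) := by
  intro B hB g hgB
  obtain ⟨a, ha, b, hb, rfl⟩ := hfac g
  have hb2 : cj b B ≤ N₂ := by
    have := cj_mono b (hB.trans hS₂)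
    rwa [cj_self_of_mem hb] at this
  have hb1 : cj b B ≤ N₁ := by
    have := cj_mono a⁻¹ (hgB.trans hS₁)
    rwa [← cj_mul, inv_mul_cancel_left, cj_self_of_mem (N₁.inv_mem ha)] at this
  obtain ⟨d, hd, hdB⟩ := exists_conj_le_of_relIndex (le_inf hS₁ hS₂) S.2
    (sylow_relIndex_of_le S (le_inf hS₁ hS₂)) (le_inf hb1 hb2) (isPGroup_cj b (S.2.to_le hB))
  have g1 : Gen 𝓗 (S : Subgroup X) B (d * b) :=
    Gen.base h₂ (N₂.mul_mem hd.2 hb) hB (by rw [cj_mul]; exact hdB)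
  have g2 : Gen 𝓗 (S : Subgroup X) (cj (d * b) B) (a * d⁻¹) := by
    refine Gen.base h₁ (N₁.mul_mem ha (N₁.inv_mem hd.1)) (by rw [cj_mul]; exact hdB) ?_
    rw [← cj_mul]
    have e : a * d⁻¹ * (d * b) = a * b := by group
    rw [e]; exact hgB
  have := Gen.comp g1 g2
  have e : a * d⁻¹ * (d * b) = a * b := by group
  rwa [e] at this

theorem Gen.preserve {X : Type*} [Group X] {𝓗 : Set (Subgroup X)} {S A : Subgroup X}
    (hA : ∀ H ∈ 𝓗, H ≤ Subgroup.normalizer (A : Set X)) {B : Subgroup X} {g : X}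
    (h : Gen 𝓗 S B g) : B ≤ A → cj g B ≤ A := by
  induction h with
  | @base H B x h1 h2 _ _ =>
    intro hB
    have := cj_mono x hB
    rwa [cj_eq_of_mem_normalizer (hA H h1 h2)] at this
  | one _ => intro hB; rw [cj_one]; exact hB
  | comp _ _ ih1 ih2 => intro hB; rw [cj_mul]; exact ih2 (ih1 hB)
  | ext _ h ih => intro hB; rw [conj_eq_of_same_action h]; exact ih hB

/-- conjugates of `Ω₁Z(S)` under `N(W(S))` are conjugates under `N(W'(S))` -/
theorem conj_in_other {G : Type u} [Group G] [Finite G] (S : Sylow p G)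
    {W W' : ∀ (Q : Type u) [Group Q], Subgroup Q} (hW : IsCharPFunctor.{u} p W)
    (hW' : IsCharPFunctor.{u} p W') (hfac : FacCN p G W')
    (hZ : omegaOne p ((S : Subgroup G) ⊓ Subgroup.centralizer ((S : Subgroup G) : Set G)) ≤
      inducedFunctor (G := G) W (S : Subgroup G))
    (x : G) (hx : x ∈ Subgroup.normalizer
      ((inducedFunctor (G := G) W (S : Subgroup G) : Subgroup G) : Set G)) (z : G)
    (hz : z ∈ omegaOne p ((S : Subgroup G) ⊓ Subgroup.centralizer ((S : Subgroup G) : Set G))) :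
    ∃ b ∈ Subgroup.normalizer ((inducedFunctor (G := G) W' (S : Subgroup G) : Subgroup G) : Set G),
      x * z * x⁻¹ = b * z * b⁻¹ := by
  obtain ⟨Z, hZdef⟩ : ∃ Z : Subgroup G, Z = omegaOne p ((S : Subgroup G) ⊓
    Subgroup.centralizer ((S : Subgroup G) : Set G)) := ⟨_, rfl⟩
  obtain ⟨WS, hWS⟩ : ∃ WS : Subgroup G, WS = inducedFunctor (G := G) W (S : Subgroup G) := ⟨_, rfl⟩
  obtain ⟨N, hN⟩ : ∃ N : Subgroup G, N = Subgroup.normalizer (WS : Set G) := ⟨_, rfl⟩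
  rw [← hZdef] at hZ hz
  rw [← hWS] at hZ hx
  rw [← hN] at hx
  have hWSS : WS ≤ (S : Subgroup G) := hWS ▸ Cfsg.Agent.Lib.Helper40.ind_le _
  have hSN : (S : Subgroup G) ≤ N := by
    rw [hN, hWS]
    exact Subgroup.le_normalizer.trans (Cfsg.Agent.Lib.Helper62.normalizer_le_ind hW _ S.2)
  have hZS : Z ≤ (S : Subgroup G) ⊓ Subgroup.centralizer ((S : Subgroup G) : Set G) :=
    hZdef ▸ omegaOne_le _
  have hVle : VN N Z ≤ WS ⊓ Subgroup.centralizer (WS : Set G) := by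
    apply VN_le
    intro n hn w hw
    have h1 : w ∈ WS ⊓ Subgroup.centralizer (WS : Set G) :=
      ⟨hZ hw, Subgroup.centralizer_le hWSS (hZS hw).2⟩
    have h2 := conj_mem_cj (g := n) h1
    rwa [cj_inf, cj_centralizer, cj_eq_of_mem_normalizer (hN ▸ hn)] at h2
  have hVS : VN N Z ≤ (S : Subgroup G) := hVle.trans (inf_le_left.trans hWSS)
  have hVV : VN N Z ≤ Subgroup.centralizer ((VN N Z : Subgroup G) : Set G) :=
    hVle.trans (inf_le_right.trans (Subgroup.centralizer_le (hVle.trans inf_le_left)))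
  have hNV : N ≤ Subgroup.normalizer ((VN N Z : Subgroup G) : Set G) := le_normalizer_VN N Z
  have hSV : (S : Subgroup G) ≤ Subgroup.normalizer ((VN N Z : Subgroup G) : Set G) := hSN.trans hNV
  have htame : ¬ p ∣ ((S : Subgroup G) ⊓ Subgroup.normalizer ((VN N Z : Subgroup G) : Set G)).relIndex
      (Subgroup.normalizer ((VN N Z : Subgroup G) : Set G)) := by
    rw [inf_of_le_left hSV]; exact sylow_relIndex_of_le S hSV
  obtain ⟨c, hc, hcx⟩ := exists_centralizer_mul S htame (hNV hx)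
  have hxz : x * z * x⁻¹ ∈ VN N Z := conj_mem_VN hx hz
  have e1 : (c * x) * z * (c * x)⁻¹ = x * z * x⁻¹ := by
    have h1 : (x * z * x⁻¹) * c = c * (x * z * x⁻¹) := Subgroup.mem_centralizer_iff.mp hc _ hxz
    calc (c * x) * z * (c * x)⁻¹ = c * (x * z * x⁻¹) * c⁻¹ := by group
      _ = (x * z * x⁻¹) * c * c⁻¹ := by rw [h1]
      _ = x * z * x⁻¹ := by group
  rw [← e1]
  apply conj_eq_of_centric S hW' hfac
    ((S : Subgroup G) ⊓ Subgroup.centralizer ((VN N Z : Subgroup G) : Set G)) inf_le_left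
  · exact le_normalizer_inf Subgroup.le_normalizer
      (hSV.trans (normalizer_le_normalizer_centralizer _))
  · exact inf_le_inf_left _ (Subgroup.centralizer_le (le_inf hVS hVV))
  · exact mem_normalizer_iff_cj.mpr hcx
  · rw [← hZdef]; exact hz

end Cfsg.Agent.Lib.Helper57.TF
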