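import Mathlib
import Cfsg.Agent.Lib.Helper57.TF3

set_option autoImplicit false

/-! Triple factorizations (Glauberman): main theorem. -/

namespace Cfsg.Agent.Lib.Helper57.TF

open Cfsg Cfsg.Agent.Lib.Helper39 Cfsg.Agent.Lib.Helper57.FC

universe u

/-- the `p`-torsion of an abelian subgroup -/
def tor {G : Type*} [Group G] (p : ℕ) (M : Subgroup G)
    (hM : M ≤ Subgroup.centralizer (M : Set G)) : Subgroup G where
  carrier := {x | x ∈ M ∧ x ^ p = 1}
  one_mem' := ⟨M.one_mem, one_pow _⟩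
  mul_mem' := by
    rintro a b ⟨ha, hap⟩ ⟨hb, hbp⟩
    refine ⟨M.mul_mem ha hb, ?_⟩
    have hc : Commute a b := (Subgroup.mem_centralizer_iff.mp (hM hb) a ha)
    rw [hc.mul_pow, hap, hbp, one_mul]
  inv_mem' := by
    rintro a ⟨ha, hap⟩
    exact ⟨M.inv_mem ha, by rw [inv_pow, hap, inv_one]⟩

theorem omegaOne_le_tor {G : Type*} [Group G] (p : ℕ) (M : Subgroup G)
    (hM : M ≤ Subgroup.centralizer (M : Set G)) : omegaOne p M ≤ tor p M hM :=
  (Subgroup.closure_le _).mpr (fun _ hx => hx)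

theorem inf_centralizer_abelian {G : Type*} [Group G] (M : Subgroup G) :
    M ⊓ Subgroup.centralizer (M : Set G) ≤
      Subgroup.centralizer ((M ⊓ Subgroup.centralizer (M : Set G) : Subgroup G) : Set G) :=
  inf_le_right.trans (Subgroup.centralizer_le inf_le_left)

variable {p : ℕ} [Fact p.Prime]

/-- the factorization hypothesis `G* = N(W₁(S*)) N(W₂(S*))` in constrained sections -/
def FacNN (p : ℕ) (G : Type u) [Group G] (W₁ W₂ : ∀ (Q : Type u) [Group Q], Subgroup Q) : Prop :=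
  ∀ (K R : Subgroup G) [hR : (R.subgroupOf K).Normal],
    Subgroup.centralizer ((pCore p (↥K ⧸ R.subgroupOf K) : Subgroup (↥K ⧸ R.subgroupOf K)) :
      Set (↥K ⧸ R.subgroupOf K)) ≤ pCore p (↥K ⧸ R.subgroupOf K) →
    ∀ T : Sylow p (↥K ⧸ R.subgroupOf K), ∀ x : (↥K ⧸ R.subgroupOf K),
      ∃ a ∈ Subgroup.normalizer ((inducedFunctor (G := (↥K ⧸ R.subgroupOf K)) W₁
        (T : Subgroup (↥K ⧸ R.subgroupOf K)) : Subgroup (↥K ⧸ R.subgroupOf K)) :
          Set (↥K ⧸ R.subgroupOf K)),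
      ∃ b ∈ Subgroup.normalizer ((inducedFunctor (G := (↥K ⧸ R.subgroupOf K)) W₂
        (T : Subgroup (↥K ⧸ R.subgroupOf K)) : Subgroup (↥K ⧸ R.subgroupOf K)) :
          Set (↥K ⧸ R.subgroupOf K)), x = a * b

theorem ctl_of_facNN {G : Type u} [Group G] [Finite G] (S : Sylow p G)
    {W₁ W₂ : ∀ (Q : Type u) [Group Q], Subgroup Q} (hW₁ : IsCharPFunctor.{u} p W₁)
    (hW₂ : IsCharPFunctor.{u} p W₂) (h3 : FacNN p G W₁ W₂) :
    Ctl (Hs (fam {W₁, W₂} id) (S : Subgroup G)) (S : Subgroup G) := by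
  have h𝓦 : ∀ W ∈ ({W₁, W₂} : Set (∀ (Q : Type u) [Group Q], Subgroup Q)),
      IsCharPFunctor.{u} p W := by
    rintro W (rfl | rfl)
    · exact hW₁
    · exact hW₂
  refine sections_master h𝓦 (fun X _ hX hc T => ctl_of_section_hyp h𝓦 ?_ X hX hc T) G
    (Cfsg.Agent.Lib.Helper40.IsSec.refl G) S
  intro K R hR hc T
  refine ctl_of_product T (N₁ := Subgroup.normalizer ((inducedFunctor W₁
      (T : Subgroup (↥K ⧸ R.subgroupOf K)) : Subgroup (↥K ⧸ R.subgroupOf K)) : Set _))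
    (N₂ := Subgroup.normalizer ((inducedFunctor W₂
      (T : Subgroup (↥K ⧸ R.subgroupOf K)) : Subgroup (↥K ⧸ R.subgroupOf K)) : Set _))
    ⟨⟨W₁, Or.inl rfl⟩, rfl⟩ ⟨⟨W₂, Or.inr rfl⟩, rfl⟩ ?_ ?_ (h3 K R hc T)
  · exact Subgroup.le_normalizer.trans (Cfsg.Agent.Lib.Helper62.normalizer_le_ind hW₁ _ T.2)
  · exact Subgroup.le_normalizer.trans (Cfsg.Agent.Lib.Helper62.normalizer_le_ind hW₂ _ T.2)

theorem triple_main {G : Type u} [Group G] [Finite G] (S : Sylow p G)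
    {W₁ W₂ : ∀ (Q : Type u) [Group Q], Subgroup Q} (hW₁ : IsCharPFunctor.{u} p W₁)
    (hW₂ : IsCharPFunctor.{u} p W₂) (h1 : FacCN p G W₁) (h2 : FacCN p G W₂)
    (h3 : FacNN p G W₁ W₂)
    (hZ : omegaOne p ((S : Subgroup G) ⊓ Subgroup.centralizer ((S : Subgroup G) : Set G)) ≤
      inducedFunctor (G := G) W₁ (S : Subgroup G) ⊓ inducedFunctor (G := G) W₂ (S : Subgroup G))
    (A : Subgroup G)
    (hA : A = VN (Subgroup.normalizer ((inducedFunctor (G := G) W₁ (S : Subgroup G) : Subgroup G) :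
      Set G)) (omegaOne p ((S : Subgroup G) ⊓ Subgroup.centralizer ((S : Subgroup G) : Set G)))) :
    A ≤ (S : Subgroup G) ∧ IsElementaryAbelian p A ∧ IsStronglyClosed A (S : Subgroup G) := by
  obtain ⟨Z, hZdef⟩ : ∃ Z : Subgroup G, Z = omegaOne p ((S : Subgroup G) ⊓
    Subgroup.centralizer ((S : Subgroup G) : Set G)) := ⟨_, rfl⟩
  obtain ⟨WS, hWS⟩ : ∃ WS : Subgroup G, WS = inducedFunctor (G := G) W₁ (S : Subgroup G) := ⟨_, rfl⟩
  have hWSS : WS ≤ (S : Subgroup G) := hWS ▸ Cfsg.Agent.Lib.Helper40.ind_le _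
  have hZS : Z ≤ (S : Subgroup G) ⊓ Subgroup.centralizer ((S : Subgroup G) : Set G) :=
    hZdef ▸ omegaOne_le _
  have hZp : ∀ z ∈ Z, z ^ p = 1 := by
    intro z hz
    rw [hZdef] at hz
    exact (omegaOne_le_tor p _ (inf_centralizer_abelian _) hz).2
  -- `A` lies in the torsion of `Z(W₁(S))`
  have hAtor : A ≤ tor p (WS ⊓ Subgroup.centralizer (WS : Set G)) (inf_centralizer_abelian _) := by
    rw [hA, ← hZdef, ← hWS]
    apply VN_le
    intro n hn w hw
    have h1 : w ∈ WS ⊓ Subgroup.centralizer (WS : Set G) :=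
      ⟨hWS ▸ (hZ (hZdef ▸ hw)).1, Subgroup.centralizer_le hWSS (hZS hw).2⟩
    have h2 := conj_mem_cj (g := n) h1
    rw [cj_inf, cj_centralizer, cj_eq_of_mem_normalizer hn] at h2
    refine ⟨h2, ?_⟩
    rw [conj_pow, hZp w hw]; group
  have hAS : A ≤ (S : Subgroup G) := fun a ha => hWSS (hAtor ha).1.1
  -- the two normal closures coincide
  have hA2 : A = VN (Subgroup.normalizer ((inducedFunctor (G := G) W₂ (S : Subgroup G) :
      Subgroup G) : Set G)) (omegaOne p ((S : Subgroup G) ⊓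
        Subgroup.centralizer ((S : Subgroup G) : Set G))) := by
    rw [hA]
    apply le_antisymm
    · apply VN_le
      intro x hx z hz
      obtain ⟨b, hb, e⟩ := conj_in_other S hW₁ hW₂ h2 (hZ.trans inf_le_left) x hx z hz
      rw [e]; exact conj_mem_VN hb hz
    · apply VN_le
      intro x hx z hz
      obtain ⟨b, hb, e⟩ := conj_in_other S hW₂ hW₁ h1 (hZ.trans inf_le_right) x hx z hz
      rw [e]; exact conj_mem_VN hb hz
  have hctl := ctl_of_facNN S hW₁ hW₂ h3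
  refine ⟨hAS, ⟨⟨⟨fun a b => Subtype.ext ?_⟩⟩, fun a ha => (hAtor ha).2⟩, hAS, ?_⟩
  · exact (Subgroup.mem_centralizer_iff.mp
      (inf_centralizer_abelian WS (hAtor b.2).1) a.1 (hAtor a.2).1)
  · intro a ha g hg
    have hB : Subgroup.zpowers a ≤ A := Subgroup.zpowers_le.mpr ha
    have hgB : cj g (Subgroup.zpowers a) ≤ (S : Subgroup G) := by
      show Subgroup.map _ _ ≤ _
      rw [MonoidHom.map_zpowers, Subgroup.zpowers_le]
      exact hg
    have h4 := Gen.preserve (A := A) ?_ (hctl _ (hB.trans hAS) g hgB) hB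
    · exact h4 (conj_mem_cj (Subgroup.mem_zpowers a))
    · rintro _ ⟨⟨W, hW⟩, rfl⟩
      rcases hW with rfl | hW
      · rw [hA]; exact le_normalizer_VN _ _
      · rw [Set.mem_singleton_iff] at hW
        subst hW
        rw [hA2]; exact le_normalizer_VN _ _

end Cfsg.Agent.Lib.Helper57.TF
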