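import Cfsg.Agent.Lib.Helper57.WAPU

/-! LADDER WA (S2400): rung PC -/

set_option autoImplicit false

namespace Cfsg.Agent.Lib.Helper45.StW

/-- a stem extension of a perfect group is perfect -/
theorem wa_perfect_of_stem {Γ G : Type*} [Group Γ] [Group G] (σ : Γ →* G)
    (hs : Function.Surjective σ) (hk : σ.ker ≤ commutator Γ)
    (hG : commutator G = ⊤) : commutator Γ = ⊤ := by
  rw [eq_top_iff]
  intro y _
  have hmap : (commutator Γ).map σ = commutator G := by
    rw [commutator_def, Subgroup.map_commutator, commutator_def,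
      ← MonoidHom.range_eq_map, MonoidHom.range_eq_top.mpr hs]
  have hy : σ y ∈ (commutator Γ).map σ := by rw [hmap, hG]; trivial
  obtain ⟨c, hc, hcy⟩ := hy
  have hker : c⁻¹ * y ∈ σ.ker := by
    rw [MonoidHom.mem_ker, map_mul, map_inv, hcy, inv_mul_cancel]
  have := (commutator Γ).mul_mem hc (hk hker)
  simpa using this

/-- [PC] (Mathlib only) a central extension of a central extension of a perfect group -/
theorem perfect_central {Γ G H : Type*} [Group Γ] [Group G] [Group H] (σ : Γ →* G)
    (hs : Function.Surjective σ) (hc : σ.ker ≤ Subgroup.center Γ) (hk : σ.ker ≤ commutator Γ)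
    (hG : commutator G = ⊤) (π : G →* H) (hπ : π.ker ≤ Subgroup.center G) :
    (π.comp σ).ker ≤ Subgroup.center Γ := by
  have hΓ := wa_perfect_of_stem σ hs hk hG
  intro z hz
  have hσz : σ z ∈ Subgroup.center G := by
    apply hπ
    rw [MonoidHom.mem_ker] at hz ⊢
    exact hz
  -- the two homs `id` and conjugation by `z` agree modulo `ker σ`
  have := perfect_unique hΓ σ hc (MonoidHom.id Γ) (MulAut.conj z).toMonoidHom (by
    ext g
    simp only [MonoidHom.comp_apply, MonoidHom.id_apply, MulEquiv.coe_toMonoidHom,
      MulAut.conj_apply, map_mul, map_inv]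
    have h1 := Subgroup.mem_center_iff.mp hσz (σ g)
    rw [← h1, mul_inv_cancel_right])
  rw [Subgroup.mem_center_iff]
  intro g
  have h2 := DFunLike.congr_fun this g
  simp only [MonoidHom.id_apply, MulEquiv.coe_toMonoidHom, MulAut.conj_apply] at h2
  -- g = z g z⁻¹
  calc g * z = (z * g * z⁻¹) * z := by rw [← h2]
    _ = z * g := by group

end Cfsg.Agent.Lib.Helper45.StW
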