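import Mathlib

/-! LADDER WA (S2400): rung PU -/

set_option autoImplicit false

namespace Cfsg.Agent.Lib.Helper45.StW

/-- a map into a group, with central values `φ x`, multiplicative: trivial on a perfect group -/
theorem wa_hom_trivial {P A : Type*} [Group P] [Group A] (hP : commutator P = ⊤)
    (φ : P →* A) (hcomm : ∀ x y, φ x * φ y = φ y * φ x) (x : P) : φ x = 1 := by
  have hle : commutator P ≤ φ.ker := by
    rw [commutator_def, Subgroup.commutator_le]
    intro a _ b _
    rw [MonoidHom.mem_ker, commutatorElement_def, map_mul, map_mul, map_mul, map_inv, map_inv, hcomm a b]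
    group
  have : x ∈ commutator P := by rw [hP]; trivial
  exact hle this

/-- [PU] (Mathlib only) homomorphisms of a perfect group agreeing modulo a central subgroup are equal -/
theorem perfect_unique {P E H : Type*} [Group P] [Group E] [Group H] (hP : commutator P = ⊤)
    (π : E →* H) (hπ : π.ker ≤ Subgroup.center E) (f g : P →* E) (h : π.comp f = π.comp g) : f = g := by
  have hz : ∀ x, f x * (g x)⁻¹ ∈ Subgroup.center E := by
    intro x
    apply hπ
    rw [MonoidHom.mem_ker, map_mul, map_inv]
    have := DFunLike.congr_fun h x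
    simp only [MonoidHom.comp_apply] at this
    rw [this, mul_inv_cancel]
  let φ : P →* E :=
    { toFun := fun x => f x * (g x)⁻¹
      map_one' := by simp
      map_mul' := by
        intro x y
        have h1 := Subgroup.mem_center_iff.mp (hz y) (g x)⁻¹
        -- (g x)⁻¹ * z = z * (g x)⁻¹
        calc f (x * y) * (g (x * y))⁻¹ = f x * ((f y * (g y)⁻¹) * (g x)⁻¹) := by
              rw [map_mul, map_mul, mul_inv_rev]; group
          _ = f x * ((g x)⁻¹ * (f y * (g y)⁻¹)) := by rw [h1]
          _ = f x * (g x)⁻¹ * (f y * (g y)⁻¹) := by group }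
  have hφ : ∀ x, φ x = 1 := by
    apply wa_hom_trivial hP φ
    intro x y
    exact (Subgroup.mem_center_iff.mp (hz y) (φ x))
  ext x
  have := hφ x
  exact mul_inv_eq_one.mp this

end Cfsg.Agent.Lib.Helper45.StW
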